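import Cfsg.Agent.H92.RtRR
import Cfsg.Agent.CharBase.Basic

/-!
# The class functions `φ_θ` on `K = PSL₂(q)`
-/

set_option autoImplicit false

namespace Cfsg.Agent.H92.Rt

open scoped ComplexConjugate

/-- `φ` is the class function `φ_θ`: `1 ↦ q - 1`, `U# ↦ -1`, `B \ U ↦ 0` (`B = N(U)`), `a ↦ -(θ(a) + θ(a⁻¹))` for `a ∈ A#`,
zero on the elements of even order. -/
structure IsPhi {K : Type*} [Group K] (q : ℕ) (U A : Subgroup K) (θ : A →* ℂ) (φ : K → ℂ) : Prop where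
  cl : ∀ g y : K, φ (g * y * g⁻¹) = φ y
  sup : ∀ y : K, ¬ Odd (orderOf y) → φ y = 0
  one : φ 1 = (q : ℂ) - 1
  onU : ∀ x ∈ U, x ≠ 1 → φ x = -1
  onB : ∀ b ∈ Subgroup.normalizer (U : Set K), b ∉ U → φ b = 0
  onA : ∀ a : A, a ≠ 1 → φ (a : K) = -(θ a + θ a⁻¹)
  real : ∀ y : K, conj (φ y) = φ y

end Cfsg.Agent.H92.Rt
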