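import Cfsg.Agent.H92.RtDef

/-!
# Groups of Ree type involve `S₃`: `KD0` (= `KD` without the class equation) and the rotation data `RR`
-/

set_option autoImplicit false

namespace Cfsg.Agent.H92.Rt

/-- `KD` without `sumOdd` -/
structure KD0 {K : Type*} [Group K] (q m : ℕ) (U A : Subgroup K) (k s r : K) : Prop where
  q27 : 27 ≤ q
  q3 : ∃ N : ℕ, q = 3 ^ N
  qm : q + 1 = 4 * m
  modd : Odd m
  cardK : Nat.card K * 2 = q * (q - 1) * (q + 1)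
  -- the Sylow 3-subgroup `U`
  cardU : Nat.card U = q
  Ucomm : ∀ x ∈ U, ∀ y ∈ U, x * y = y * x
  Uexp : ∀ x ∈ U, x ^ 3 = 1
  Ucent : ∀ x ∈ U, x ≠ 1 → ∀ g : K, g * x = x * g → g ∈ U
  cardNU : Nat.card (Subgroup.normalizer (U : Set K)) * 2 = q * (q - 1)
  Bcomm : ∀ b ∈ Subgroup.normalizer (U : Set K), ∀ c ∈ Subgroup.normalizer (U : Set K), b * c * b⁻¹ * c⁻¹ ∈ U
  UTI : ∀ g x : K, x ∈ U → x ≠ 1 → g * x * g⁻¹ ∈ U → g ∈ Subgroup.normalizer (U : Set K)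
  Uconj : ∀ x : K, x ^ 3 = 1 → ∃ g : K, g * x * g⁻¹ ∈ U
  Ucl : ∀ x ∈ U, x ≠ 1 → ∀ y ∈ U, y ≠ 1 → ∃ g : K, g * x * g⁻¹ = y ∨ g * x * g⁻¹ = y⁻¹
  -- the involution `k` and its centralizer
  k1 : k ≠ 1
  k2 : k * k = 1
  kconj : ∀ x : K, x ≠ 1 → x * x = 1 → ∃ g : K, g * x * g⁻¹ = k
  cardCk : Nat.card (Subgroup.centralizer ({k} : Set K)) = 4 * m
  cardA : Nat.card A = m
  Acyc : IsCyclic A
  Ak : ∀ a ∈ A, a * k = k * a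
  s1 : s ≠ 1
  s2 : s * s = 1
  sk : s ≠ k
  sck : s * k = k * s
  sA : ∀ a ∈ A, s * a * s⁻¹ = a⁻¹
  Acent : ∀ a ∈ A, a ≠ 1 → ∀ g : K, g * a = a * g → ∃ b ∈ A, g = b ∨ g = k * b
  ATI : ∀ g a : K, a ∈ A → a ≠ 1 → g * a * g⁻¹ ∈ A → g * a * g⁻¹ = a ∨ g * a * g⁻¹ = a⁻¹
  r3 : r ^ 3 = 1
  rk : r * k * r⁻¹ = s
  rs : r * s * r⁻¹ = k * s

/-- the rotation data -/
structure RR {G : Type*} [Group G] (t : G) (K : Subgroup G) (q m : ℕ) (U A : Subgroup K) (k s r : K) (ρ u : G) : Prop where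
  rd : RD t K q m U A k s r
  rho3 : ρ ^ 3 = 1
  rt : ρ * t * ρ⁻¹ = (k : G) ∨ ρ * t * ρ⁻¹ = t * (k : G)
  rt2 : ρ * (ρ * t * ρ⁻¹) * ρ⁻¹ = t * (ρ * t * ρ⁻¹)
  ut : u * t = t * u
  uk : u * (k : G) = (k : G) * u
  ur : u * ρ = ρ * u
  u1 : u ≠ 1
  u2 : u * u = 1
  uV : u ≠ t ∧ u ≠ (k : G) ∧ u ≠ t * (k : G)
  uA : ∀ a ∈ A, u * (a : G) * u⁻¹ = (a : G)⁻¹
  rA : ∀ a ∈ A, ∃ b ∈ A, ρ * (a : G) * ρ⁻¹ = (b : G)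

end Cfsg.Agent.H92.Rt
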