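import Cfsg.Prelude.Def_LocalEven

/-!
# Groups of Ree type involve `S₃`: interface

`KD q m U A k s r`: the facts used about `K = PSL₂(q)`, `q = 3^N ≥ 27`, `q + 1 = 4 m`, `m` odd.
`U` a Sylow 3-subgroup, `k` an involution, `A` the cyclic subgroup of order `m` of the dihedral group `C(k)` of
order `4 m`, `s` an involution of `C(k)` inverting `A`, `r` an element of order 3 with `k → s → k s → k`.
`RD`: a group of Ree type without elements of order 3 inverted by involutions.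
-/

set_option autoImplicit false

namespace Cfsg.Agent.H92.Rt

structure KD {K : Type*} [Group K] (q m : ℕ) (U A : Subgroup K) (k s r : K) : Prop where
  q27 : 27 ≤ q
  q3 : ∃ N : ℕ, q = 3 ^ N
  qm : q + 1 = 4 * m
  modd : Odd m
  cardK : Nat.card K * 2 = q * (q - 1) * (q + 1)
  -- the Sylow 3-subgroup `U`
  cardU : Nat.card U = q
  Ucomm : ∀ x ∈ U, ∀ y ∈ U, x * y = y * x
  Uexp : ∀ x ∈ U, x ^ 3 = 1
  Ucent : ∀ x ∈ U, x ≠ 1 → ∀ g : K, g * x = x * g → g ∈ U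
  cardNU : Nat.card (Subgroup.normalizer (U : Set K)) * 2 = q * (q - 1)
  Bcomm : ∀ b ∈ Subgroup.normalizer (U : Set K), ∀ c ∈ Subgroup.normalizer (U : Set K), b * c * b⁻¹ * c⁻¹ ∈ U
  UTI : ∀ g x : K, x ∈ U → x ≠ 1 → g * x * g⁻¹ ∈ U → g ∈ Subgroup.normalizer (U : Set K)
  Uconj : ∀ x : K, x ^ 3 = 1 → ∃ g : K, g * x * g⁻¹ ∈ U
  Ucl : ∀ x ∈ U, x ≠ 1 → ∀ y ∈ U, y ≠ 1 → ∃ g : K, g * x * g⁻¹ = y ∨ g * x * g⁻¹ = y⁻¹
  -- the involution `k` and its centralizer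
  k1 : k ≠ 1
  k2 : k * k = 1
  kconj : ∀ x : K, x ≠ 1 → x * x = 1 → ∃ g : K, g * x * g⁻¹ = k
  cardCk : Nat.card (Subgroup.centralizer ({k} : Set K)) = 4 * m
  cardA : Nat.card A = m
  Acyc : IsCyclic A
  Ak : ∀ a ∈ A, a * k = k * a
  s1 : s ≠ 1
  s2 : s * s = 1
  sk : s ≠ k
  sck : s * k = k * s
  sA : ∀ a ∈ A, s * a * s⁻¹ = a⁻¹
  Acent : ∀ a ∈ A, a ≠ 1 → ∀ g : K, g * a = a * g → ∃ b ∈ A, g = b ∨ g = k * b
  ATI : ∀ g a : K, a ∈ A → a ≠ 1 → g * a * g⁻¹ ∈ A → g * a * g⁻¹ = a ∨ g * a * g⁻¹ = a⁻¹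
  r3 : r ^ 3 = 1
  rk : r * k * r⁻¹ = s
  rs : r * s * r⁻¹ = k * s
  -- the class equation for class functions on elements of odd order
  sumOdd : ∀ [Fintype K] (f : K → ℂ), (∀ g y : K, f (g * y * g⁻¹) = f y) → (∀ y : K, ¬ Odd (orderOf y) → f y = 0) →
    2 * ∑ y : K, f y = 2 * f 1 + 2 * ((q : ℂ) + 1) * (∑ᶠ u ∈ {u : K | u ∈ U ∧ u ≠ 1}, f u) +
      ((q : ℂ) + 1) * (∑ᶠ b ∈ {b : K | b ∈ Subgroup.normalizer (U : Set K) ∧ b ∉ U}, f b) +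
      (q : ℂ) * ((q : ℂ) - 1) * (∑ᶠ a ∈ {a : K | a ∈ A ∧ a ≠ 1}, f a)

structure RD {G : Type*} [Group G] (t : G) (K : Subgroup G) (q m : ℕ) (U A : Subgroup K) (k s r : K) : Prop where
  kd : KD q m U A k s r
  t1 : t ≠ 1
  t2 : t * t = 1
  tK : t ∉ K
  cent : ∀ g : G, g * t = t * g ↔ ∃ y : K, g = (y : G) ∨ g = t * (y : G)
  -- Sylow 2-subgroups are abelian (of order 8)
  syl : ∀ S : Sylow 2 G, Nat.card S = 8 ∧ ∀ x ∈ S, ∀ y ∈ S, x * y = y * x ∧ x * x = 1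
  -- all involutions are conjugate
  inv : ∀ u : G, u ≠ 1 → u * u = 1 → ∃ g : G, g * u * g⁻¹ = t
  -- no involution inverts an element of order 3
  no3 : ∀ u y : G, u ≠ 1 → u * u = 1 → y ^ 3 = 1 → u * y * u⁻¹ = y⁻¹ → y = 1

end Cfsg.Agent.H92.Rt
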