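import Cfsg.Agent.SmallDim.Fr.Basic

/-!
# Orthogonal frames, four coordinates (piece (D)): the group `K` and the set `C`
-/

set_option autoImplicit false
set_option linter.unusedSectionVars false
set_option linter.unusedVariables false

namespace Cfsg.Agent.H92.FrD

open QuadraticMap Module Cfsg.Agent.Orth Cfsg.Agent.GeoMax.Ort Cfsg.Agent.SmallDim.Fr
open Matrix

variable {F : Type*} [Field F] {ι : Type} [Fintype ι] [DecidableEq ι]
variable {M : Subgroup (OGrp (Q0 F ι))}

/-- the unit vectors whose reflection is in the coset of `rf (e b)` -/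
def CC (M : Subgroup (OGrp (Q0 F ι))) (b : ι) (v : ι → F) : Prop := v ⬝ᵥ v = 1 ∧ rf v * rf (e b) ∈ M

theorem fix_comm_b {J : Finset ι} {b : ι} (hb : b ∉ J) {g : OGrp (Q0 F ι)} (hg : Fix J g) :
    g * rf (e b) = rf (e b) * g := by
  have h := rf_conj g (e b)
  rw [hg b hb] at h
  calc g * rf (e b) = (g * rf (e b) * g⁻¹) * g := by group
    _ = rf (e b) * g := by rw [h]

/-- the group generated by the elements of `M` fixing everything outside `J` and the similar elements in the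
other coset -/
def KK (M : Subgroup (OGrp (Q0 F ι))) (J : Finset ι) (b : ι) (hb : b ∉ J) : Subgroup (OGrp (Q0 F ι)) where
  carrier := {g | Fix J g ∧ (g ∈ M ∨ g * rf (e b) ∈ M)}
  one_mem' := ⟨Fix.one J, Or.inl M.one_mem⟩
  mul_mem' := by
    rintro g h ⟨hg1, hg2⟩ ⟨hh1, hh2⟩
    refine ⟨hg1.mul hh1, ?_⟩
    have hc := fix_comm_b hb hh1
    rcases hg2 with hg2 | hg2 <;> rcases hh2 with hh2 | hh2
    · left; exact M.mul_mem hg2 hh2
    · right; rw [mul_assoc]; exact M.mul_mem hg2 hh2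
    · right
      have : g * h * rf (e b) = (g * rf (e b)) * h := by rw [mul_assoc, hc, mul_assoc]
      rw [this]; exact M.mul_mem hg2 hh2
    · left
      have : g * h = (g * rf (e b)) * (h * rf (e b)) := by
        rw [hc, mul_assoc, ← mul_assoc (rf (e b)) (rf (e b)) h, rf_mul_self, one_mul]
      rw [this]; exact M.mul_mem hg2 hh2
  inv_mem' := by
    rintro g ⟨hg1, hg2⟩
    refine ⟨hg1.inv, ?_⟩
    rcases hg2 with hg2 | hg2
    · left; exact M.inv_mem hg2
    · right
      have hc := fix_comm_b hb hg1.inv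
      have : g⁻¹ * rf (e b) = (g * rf (e b))⁻¹ := by rw [_root_.mul_inv_rev, rf_inv, hc]
      rw [this]; exact M.inv_mem hg2

theorem mem_KK {J : Finset ι} {b : ι} {hb : b ∉ J} {g : OGrp (Q0 F ι)} :
    g ∈ KK M J b hb ↔ Fix J g ∧ (g ∈ M ∨ g * rf (e b) ∈ M) := Iff.rfl

section
variable {b : ι}

theorem CCe (hM : Base M) (i : ι) : CC M b (e i) := ⟨e_dot_e_self i, hM.ee i b⟩

theorem CCneg {v : ι → F} (hv : CC M b v) : CC M b (-v) := by
  refine ⟨?_, ?_⟩
  · rw [neg_dotProduct, dotProduct_neg, neg_neg]; exact hv.1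
  · rw [rf_neg]; exact hv.2

theorem CCmul {u v : ι → F} (hu : CC M b u) (hv : CC M b v) : rf u * rf v ∈ M := by
  have h : rf u * rf v = (rf u * rf (e b)) * (rf v * rf (e b))⁻¹ := by
    rw [_root_.mul_inv_rev, rf_inv, rf_inv, mul_assoc, ← mul_assoc (rf (e b)) _ (rf v), rf_mul_self,
      one_mul]
  rw [h]
  exact M.mul_mem hu.2 (M.inv_mem hv.2)

theorem CCrf {u v : ι → F} (hu : CC M b u) (hv : CC M b v) : CC M b ((rf u : OGrp (Q0 F ι)) v) := by
  refine ⟨by rw [OGrp_self]; exact hv.1, ?_⟩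
  rw [← rf_conj, rf_inv, mul_assoc]
  exact M.mul_mem (CCmul hu hv) hu.2

theorem CCmon {g : OGrp (Q0 F ι)} (hM : Base M) (hg : g ∈ M) {j : ι}
    (hgb : g (e b) = e j ∨ g (e b) = -e j) {v : ι → F}
    (hv : CC M b v) : CC M b (g v) := by
  refine ⟨by rw [OGrp_self]; exact hv.1, ?_⟩
  have h1 : rf (g v) * rf (e b) =
      g * (rf v * rf (e b)) * g⁻¹ * (rf (g (e b)) * rf (e b)) := by
    have h2 : g * (rf v * rf (e b)) * g⁻¹ = rf (g v) * rf (g (e b)) := by
      rw [← rf_conj, ← rf_conj]; group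
    rw [h2, mul_assoc, ← mul_assoc (rf (g (e b))) (rf (g (e b))), rf_mul_self, one_mul]
  rw [h1]
  refine M.mul_mem (M.mul_mem (M.mul_mem hg hv.2) (M.inv_mem hg)) ?_
  rcases hgb with h | h
  · rw [h]; exact hM.ee j b
  · rw [h, rf_neg]; exact hM.ee j b

theorem CCK {J : Finset ι} {hb : b ∉ J} {g : OGrp (Q0 F ι)} (hM : Base M) (hg : g ∈ KK M J b hb) {v : ι → F}
    (hv : CC M b v) : CC M b (g v) := by
  obtain ⟨h1, h2⟩ := hg
  rcases h2 with h2 | h2
  · exact CCmon hM h2 (j := b) (Or.inl (h1 b hb)) hv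
  · have hv' : CC M b ((rf (e b) : OGrp (Q0 F ι)) v) := CCrf (CCe hM b) hv
    have := CCmon hM h2 (j := b) (Or.inr ?_) hv'
    · rwa [mul_ap, rf_rf] at this
    · rw [mul_ap, rf_self (by rw [e_dot_e_self]; exact one_ne_zero), ap_neg, h1 b hb]

/-- reflections in elements of `C` supported in `J` are in `K` -/
theorem CC_mem_KK {J : Finset ι} {hb : b ∉ J} {v : ι → F} (hv : CC M b v) (hs : ∀ i, i ∉ J → v i = 0) :
    rf v ∈ KK M J b hb := by
  refine ⟨fun i hi => ?_, Or.inr hv.2⟩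
  rw [rf_ortho]
  rw [e_dot]; exact hs i hi

end

theorem rf_e_ap (i : ι) (x : ι → F) (k : ι) :
    ((rf (e i) : OGrp (Q0 F ι)) x) k = if k = i then -x k else x k := by
  rw [rf_ap1 (e_dot_e_self i), dot_e]
  simp only [Pi.sub_apply, Pi.smul_apply, smul_eq_mul, e]
  by_cases hk : k = i
  · subst hk; simp; ring
  · simp [hk]

theorem mon_rf_e (i : ι) : Mon (rf (e i : ι → F)) := by
  intro k
  refine ⟨k, ?_⟩
  by_cases hk : k = i
  · right; subst hk; exact rf_self (by rw [e_dot_e_self]; exact one_ne_zero)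
  · left; exact rf_ortho (e_dot_e_ne hk)

theorem rf_swap_ap (h2 : (2 : F) ≠ 0) {i j : ι} (hij : i ≠ j) (x : ι → F) (k : ι) :
    ((rf (e i - e j) : OGrp (Q0 F ι)) x) k = x (Equiv.swap i j k) := by
  have hn : (e i - e j : ι → F) ⬝ᵥ (e i - e j) = 2 := by
    rw [sub_dotProduct, dotProduct_sub, dotProduct_sub, e_dot_e_self, e_dot_e_self, e_dot_e_ne hij,
      e_dot_e_ne hij.symm]; ring
  rw [rf_ap (by rw [hn]; exact h2), hn]
  have hd : x ⬝ᵥ (e i - e j) = x i - x j := by rw [dotProduct_sub, dot_e, dot_e]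
  rw [hd]
  simp only [Pi.sub_apply, Pi.smul_apply, smul_eq_mul, e]
  by_cases hki : k = i
  · subst hki
    rw [Equiv.swap_apply_left]
    simp [hij]
    field_simp
    ring
  · by_cases hkj : k = j
    · subst hkj
      rw [Equiv.swap_apply_right]
      simp [hij.symm]
      field_simp
      ring
    · rw [Equiv.swap_apply_of_ne_of_ne hki hkj]
      simp [hki, hkj]

theorem e_swap (i j k : ι) : (fun l => (e k : ι → F) (Equiv.swap i j l)) = e (Equiv.swap i j k) := by
  funext l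
  simp only [e]
  by_cases h : l = Equiv.swap i j k
  · subst h; rw [Equiv.swap_apply_self]; simp
  · rw [Pi.single_eq_of_ne h, Pi.single_eq_of_ne]
    intro h'; apply h; rw [← h', Equiv.swap_apply_self]

theorem rf_swap_e (h2 : (2 : F) ≠ 0) {i j : ι} (hij : i ≠ j) (k : ι) :
    (rf (e i - e j : ι → F) : OGrp (Q0 F ι)) (e k) = e (Equiv.swap i j k) := by
  rw [← e_swap]
  funext l
  exact rf_swap_ap h2 hij _ l

theorem mon_swap (h2 : (2 : F) ≠ 0) {i j : ι} (hij : i ≠ j) : Mon (rf (e i - e j : ι → F)) := by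
  intro k
  exact ⟨_, Or.inl (rf_swap_e h2 hij k)⟩

/-- `C` is closed under swaps of two coordinates, provided two further coordinates vanish -/
theorem CCswap (hM : Base M) {b : ι} {v : ι → F} (hv : CC M b v) {i j a c : ι} (hij : i ≠ j) (hac : a ≠ c)
    (hva : v a = 0) (hvc : v c = 0) : CC M b (fun k => v (Equiv.swap i j k)) := by
  have h1 : rf (e i - e j) * rf (e a - e c) ∈ M :=
    hM.dd _ _ ⟨i, j, hij, Or.inr (Or.inl rfl)⟩ ⟨a, c, hac, Or.inr (Or.inl rfl)⟩
  have h2 : (rf (e i - e j) * rf (e a - e c) : OGrp (Q0 F ι)) v = fun k => v (Equiv.swap i j k) := by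
    have h3 : (rf (e a - e c) : OGrp (Q0 F ι)) v = v := by
      apply rf_ortho
      rw [dotProduct_sub, dot_e, dot_e, hva, hvc, sub_zero]
    rw [mul_ap, h3]
    funext k
    exact rf_swap_ap hM.two hij v k
  rw [← h2]
  obtain ⟨j', hj'⟩ := ((mon_swap hM.two hij).mul (mon_swap hM.two hac)) b
  exact CCmon hM h1 hj' hv

/-! ### Transitivity and the stabiliser -/

section
variable {J : Finset ι} {b : ι} {hb : b ∉ J}

/-- the standing hypothesis of piece (D) -/
def Stab (M : Subgroup (OGrp (Q0 F ι))) (J : Finset ι) : Prop :=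
  ∀ j ∈ J, ∀ g ∈ M, Fix J g → g (e j) = e j → Mon g

theorem K_e (hM : Base M) {j : ι} (hj : j ∈ J) : rf (e j : ι → F) ∈ KK M J b hb :=
  CC_mem_KK (CCe hM j) (fun i hi => by
    simp only [e]; rw [Pi.single_eq_of_ne]; rintro rfl; exact hi hj)

theorem exists_ne_mem (hJ : J.card = 4) (i : ι) : ∃ j ∈ J, j ≠ i := by
  have : 1 < J.card := by omega
  exact Finset.exists_mem_ne this i

theorem exists_ne2_mem (hJ : J.card = 4) (i k : ι) : ∃ j ∈ J, j ≠ i ∧ j ≠ k := by
  by_contra hcon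
  push Not at hcon
  have hsub : J ⊆ {i, k} := by
    intro j hj
    simp only [Finset.mem_insert, Finset.mem_singleton]
    by_contra h
    push Not at h
    exact h.2 (hcon j hj h.1)
  have := Finset.card_le_card hsub
  have h2 : ({i, k} : Finset ι).card ≤ 2 := Finset.card_le_two
  omega

theorem exists_ne3_mem (hJ : J.card = 4) (i k l : ι) : ∃ j ∈ J, j ≠ i ∧ j ≠ k ∧ j ≠ l := by
  by_contra hcon
  push Not at hcon
  have hsub : J ⊆ {i, k, l} := by
    intro j hj
    simp only [Finset.mem_insert, Finset.mem_singleton]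
    by_contra h
    push Not at h
    exact h.2.2 (hcon j hj h.1 h.2.1)
  have := Finset.card_le_card hsub
  have h2 : ({i, k, l} : Finset ι).card ≤ 3 := Finset.card_le_three
  omega

theorem K_stab (hM : Base M) (hJ : J.card = 4) (hst : Stab M J) {j : ι} (hj : j ∈ J) {h : OGrp (Q0 F ι)}
    (hh : h ∈ KK M J b hb) (hfix : h (e j) = e j) : Mon h := by
  obtain ⟨h1, h2⟩ := hh
  rcases h2 with h2 | h2
  · exact hst j hj h h2 h1 hfix
  · obtain ⟨k, hk, hkj⟩ := exists_ne_mem hJ j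
    have h3 : h * rf (e k) ∈ M := by
      have : h * rf (e k) = (h * rf (e b)) * (rf (e b) * rf (e k)) := by
        rw [mul_assoc, ← mul_assoc (rf (e b)) (rf (e b)), rf_mul_self, one_mul]
      rw [this]; exact M.mul_mem h2 (hM.ee b k)
    have h4 : Fix J (rf (e k) : OGrp (Q0 F ι)) := (K_e (b := b) (hb := hb) hM hk).1
    have h5 : (h * rf (e k) : OGrp (Q0 F ι)) (e j) = e j := by
      rw [mul_ap, rf_ortho (e_dot_e_ne hkj.symm), hfix]
    have h6 := hst j hj _ h3 (h1.mul h4) h5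
    have h7 : h = h * rf (e k) * rf (e k) := by rw [mul_assoc, rf_mul_self, mul_one]
    rw [h7]
    exact h6.mul (mon_rf_e k)

theorem K_trans (hM : Base M) (hJ : J.card = 4) (hst : Stab M J) {j k : ι} (hj : j ∈ J) (hk : k ∈ J)
    {h : OGrp (Q0 F ι)} (hh : h ∈ KK M J b hb) (hm : h (e j) = e k ∨ h (e j) = -e k) : Mon h := by
  -- the case `k = j`
  have key : ∀ h : OGrp (Q0 F ι), h ∈ KK M J b hb → (h (e j) = e j ∨ h (e j) = -e j) → Mon h := by
    intro h hh hm
    rcases hm with hm | hm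
    · exact K_stab hM hJ hst hj hh hm
    · have h1 : rf (e j) * h ∈ KK M J b hb := (KK M J b hb).mul_mem (K_e hM hj) hh
      have h2 : (rf (e j) * h : OGrp (Q0 F ι)) (e j) = e j := by
        rw [mul_ap, hm, ap_neg, rf_self (by rw [e_dot_e_self]; exact one_ne_zero), neg_neg]
      have h3 := K_stab hM hJ hst hj h1 h2
      have h4 : h = rf (e j) * (rf (e j) * h) := by rw [← mul_assoc, rf_mul_self, one_mul]
      rw [h4]
      exact (mon_rf_e j).mul h3
  by_cases hkj : k = j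
  · subst hkj; exact key h hh hm
  · obtain ⟨l, hl, hlj, hlk⟩ := exists_ne2_mem hJ j k
    obtain ⟨l', hl', hlj', hlk', hll'⟩ := exists_ne3_mem hJ j k l
    set m : OGrp (Q0 F ι) := rf (e j - e k) * rf (e l - e l') with hmdef
    have hmM : m ∈ M := hM.dd _ _ ⟨j, k, fun h => hkj h.symm, Or.inr (Or.inl rfl)⟩
      ⟨l, l', fun h => hll' h.symm, Or.inr (Or.inl rfl)⟩
    have hmMon : Mon m := (mon_swap hM.two fun h => hkj h.symm).mul (mon_swap hM.two fun h => hll' h.symm)
    have hap : ∀ i, m (e i) = e (Equiv.swap j k (Equiv.swap l l' i)) := by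
      intro i
      rw [hmdef, mul_ap, rf_swap_e hM.two (fun h => hll' h.symm), rf_swap_e hM.two (fun h => hkj h.symm)]
    have hmFix : Fix J m := by
      intro i hi
      rw [hap]
      have h1 : Equiv.swap l l' i = i :=
        Equiv.swap_apply_of_ne_of_ne (fun h => hi (h ▸ hl)) (fun h => hi (h ▸ hl'))
      rw [h1]
      have h2 : Equiv.swap j k i = i :=
        Equiv.swap_apply_of_ne_of_ne (fun h => hi (h ▸ hj)) (fun h => hi (h ▸ hk))
      rw [h2]
    have hmK : m ∈ KK M J b hb := ⟨hmFix, Or.inl hmM⟩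
    have hmk : m (e k) = e j := by
      rw [hap, Equiv.swap_apply_of_ne_of_ne (Ne.symm hlk) (Ne.symm hlk'), Equiv.swap_apply_right]
    have h1 : m * h ∈ KK M J b hb := (KK M J b hb).mul_mem hmK hh
    have h2 : (m * h : OGrp (Q0 F ι)) (e j) = e j ∨ (m * h : OGrp (Q0 F ι)) (e j) = -e j := by
      rw [mul_ap]
      rcases hm with hm | hm
      · left; rw [hm, hmk]
      · right; rw [hm, ap_neg, hmk]
    have h3 := key _ h1 h2
    have h4 : h = m⁻¹ * (m * h) := by group
    rw [h4]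
    exact (hmMon.inv hM.two).mul h3

/-- unit vectors with the same reflection -/
theorem eq_or_neg_of_rf {u v : ι → F} (h2 : (2 : F) ≠ 0) (hu : u ⬝ᵥ u = 1) (hv : v ⬝ᵥ v = 1)
    (h : (rf u : OGrp (Q0 F ι)) = rf v) : u = v ∨ u = -v := by
  have h1 : (rf u : OGrp (Q0 F ι)) u = -u := rf_self (by rw [hu]; exact one_ne_zero)
  rw [h, rf_ap1 hv] at h1
  have h3 : (2 : F) • (u - (u ⬝ᵥ v) • v) = 0 := by
    have : u - (2 * (u ⬝ᵥ v)) • v + u = 0 := by rw [h1]; simp
    rw [smul_sub, two_smul, smul_smul]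
    rw [← this]; abel
  have h4 : u = (u ⬝ᵥ v) • v := by
    rcases smul_eq_zero.1 h3 with h | h
    · exact absurd h h2
    · exact sub_eq_zero.1 h
  have h5 : (u ⬝ᵥ v) * (u ⬝ᵥ v) = 1 := by
    have : u ⬝ᵥ u = (u ⬝ᵥ v) * (u ⬝ᵥ v) := by
      conv_lhs => rw [h4]
      rw [smul_dotProduct, dotProduct_smul, hv]
      simp
    rw [← this, hu]
  rcases mul_self_eq_one_iff.1 h5 with h | h
  · left; rw [h4, h, one_smul]
  · right; rw [h4, h, neg_one_smul]

end

end Cfsg.Agent.H92.FrD
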