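import Cfsg.Agent.H92.FrDa

/-!
# Orthogonal frames, four coordinates: a half vector from a non-monomial element
-/

set_option autoImplicit false
set_option linter.unusedSectionVars false
set_option linter.unusedVariables false

namespace Cfsg.Agent.H92.FrD

open QuadraticMap Module Cfsg.Agent.Orth Cfsg.Agent.GeoMax.Ort Cfsg.Agent.SmallDim.Fr
open Matrix

variable {F : Type*} [Field F] {ι : Type} [Fintype ι] [DecidableEq ι]
variable {M : Subgroup (OGrp (Q0 F ι))}
variable {J : Finset ι} {b : ι} {hb : b ∉ J}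

/-- vectors `λ e_i + μ e_j` with `2 λ² = 2 μ² = 1` -/
def T2 (J : Finset ι) (f : ι → F) : Prop :=
  ∃ i ∈ J, ∃ j ∈ J, i ≠ j ∧ ∃ lam mu : F, 2 * (lam * lam) = 1 ∧ 2 * (mu * mu) = 1 ∧ f = lam • e i + mu • e j

/-- half vectors -/
def Half (J : Finset ι) (h : ι → F) : Prop :=
  (∀ i, i ∉ J → h i = 0) ∧ ∀ i ∈ J, 2 * h i = 1 ∨ 2 * h i = -1

theorem supp_of_K (hM : Base M) {g : OGrp (Q0 F ι)} (hg : g ∈ KK M J b hb) {v : ι → F}
    (hv : ∀ i, i ∉ J → v i = 0) : ∀ i, i ∉ J → (g v) i = 0 := Fix.supp hM.two hg.1 hv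

theorem supp_e {j : ι} (hj : j ∈ J) : ∀ i, i ∉ J → (e j : ι → F) i = 0 := by
  intro i hi
  simp only [e]; rw [Pi.single_eq_of_ne]; rintro rfl; exact hi hj

/-- Lemma A -/
theorem t2_of_zero (hb : b ∉ J) (hM : Base M) (hJ : J.card = 4) (hst : Stab M J) {f : ι → F} (hf : CC M b f)
    (hs : ∀ i, i ∉ J → f i = 0) (hne : ∀ k, f ≠ e k ∧ f ≠ -e k) {k : ι} (hk : k ∈ J) (hfk : f k = 0) :
    T2 J f := by
  have hK : rf f ∈ KK M J b hb := CC_mem_KK hf hs
  have hfix : (rf f : OGrp (Q0 F ι)) (e k) = e k := by
    apply rf_ortho; rw [e_dot, hfk]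
  have hMon := K_stab hM hJ hst hk hK hfix
  -- some coordinate is nonzero
  have hex : ∃ i, f i ≠ 0 := by
    by_contra hcon
    push Not at hcon
    have : f = 0 := funext hcon
    have h1 := hf.1
    rw [this, zero_dotProduct] at h1
    exact zero_ne_one h1
  obtain ⟨i, hi⟩ := hex
  have hiJ : i ∈ J := by by_contra h; exact hi (hs i h)
  obtain ⟨m, hm⟩ := hMon i
  rw [rf_ap1 hf.1, e_dot] at hm
  have h2i : 2 * f i ≠ 0 := mul_ne_zero hM.two hi
  have hmi : m ≠ i := by
    rintro rfl
    rcases hm with hm | hm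
    · have h1 : (2 * f m) • f = 0 := by
        have := congrArg (fun x => e m - x) hm
        simpa using this
      rcases smul_eq_zero.1 h1 with h | h
      · exact h2i h
      · apply hi; rw [h]; rfl
    · have h1 : (2 * f m) • f = (2 : F) • e m := by
        have := congrArg (fun x => e m - x) hm
        simp only [sub_sub_cancel, sub_neg_eq_add] at this
        rw [this, two_smul]
      have h3 : f m * f m = 1 := by
        have := congrFun h1 m
        simp only [Pi.smul_apply, smul_eq_mul, e, Pi.single_eq_same] at this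
        have h5 : (2 : F) * (f m * f m) = 2 * 1 := by rw [← mul_assoc, this]
        exact mul_left_cancel₀ hM.two h5
      have h4 : f = (f m) • e m := by
        have h6 : (2 * f m) • f = (2 * f m) • ((f m) • e m) := by
          rw [h1, smul_smul]
          congr 1
          rw [mul_assoc, h3, mul_one]
        exact smul_right_injective _ h2i h6
      rcases mul_self_eq_one_iff.1 h3 with h | h
      · rw [h, one_smul] at h4; exact (hne m).1 h4
      · rw [h, neg_one_smul] at h4; exact (hne m).2 h4
  -- `f = (2 f i)⁻¹ (e i ∓ e m)`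
  have hcases : ∃ s : F, (s = 1 ∨ s = -1) ∧ (2 * f i) • f = e i + s • e m := by
    rcases hm with hm | hm
    · refine ⟨-1, Or.inr rfl, ?_⟩
      rw [neg_one_smul, ← hm]; abel
    · refine ⟨1, Or.inl rfl, ?_⟩
      have : e m = -(e i - (2 * f i) • f) := by rw [hm, neg_neg]
      rw [one_smul, this]; abel
  obtain ⟨s, hs1, hfs⟩ := hcases
  have hss : s * s = 1 := by rcases hs1 with h | h <;> rw [h] <;> ring
  have hii : 2 * (f i * f i) = 1 := by
    have := congrFun hfs i
    simp only [Pi.smul_apply, Pi.add_apply, smul_eq_mul, e, Pi.single_eq_same] at this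
    rw [Pi.single_eq_of_ne (Ne.symm hmi), mul_zero, add_zero] at this
    rw [← mul_assoc]; exact this
  have hmm : 2 * f i * f m = s := by
    have := congrFun hfs m
    simp only [Pi.smul_apply, Pi.add_apply, smul_eq_mul, e, Pi.single_eq_same] at this
    rw [Pi.single_eq_of_ne hmi, mul_one, zero_add] at this
    exact this
  have hs0 : s ≠ 0 := by rintro rfl; simp at hss
  have hfm0 : f m ≠ 0 := by rintro h; rw [h, mul_zero] at hmm; exact hs0 hmm.symm
  have hmJ : m ∈ J := by by_contra h; exact hfm0 (hs m h)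
  have hfe : f = (f i) • e i + (s * f i) • e m := by
    have h6 : (2 * f i) • f = (2 * f i) • ((f i) • e i + (s * f i) • e m) := by
      rw [hfs, smul_add, smul_smul, smul_smul]
      congr 1
      · rw [mul_assoc, hii, one_smul]
      · congr 1
        have : 2 * f i * (s * f i) = s * (2 * (f i * f i)) := by ring
        rw [this, hii, mul_one]
    exact smul_right_injective _ h2i h6
  refine ⟨i, hiJ, m, hmJ, Ne.symm hmi, f i, s * f i, hii, ?_, hfe⟩
  have : 2 * (s * f i * (s * f i)) = (s * s) * (2 * (f i * f i)) := by ring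
  rw [this, hss, hii, mul_one]

/-- the frame vectors used by `T2`: swap inside `J` -/
theorem CC_pair (hM : Base M) (hcard : J.card + 2 ≤ Fintype.card ι) {lam mu : F} {i i' x y : ι} (hi : i ∈ J)
    (hi' : i' ∈ J) (hx : x ∈ J) (hy : y ∈ J) (hii : i ≠ i') (hxy : x ≠ y)
    (h : CC M b (lam • e i + mu • e i')) : CC M b (lam • e x + mu • e y) := by
  -- two indices outside
  obtain ⟨a, c, hac, haJ, hcJ⟩ : ∃ a c : ι, a ≠ c ∧ a ∉ J ∧ c ∉ J := by
    have h1 : 1 < (Finset.univ \ J).card := by
      rw [Finset.card_sdiff_of_subset (Finset.subset_univ _), Finset.card_univ]; omega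
    obtain ⟨a, ha, c, hc, hac⟩ := Finset.one_lt_card.1 h1
    exact ⟨a, c, hac, by simpa using ha, by simpa using hc⟩
  have hsw : ∀ (u w : ι), u ∈ J → w ∈ J → ∀ p q : ι, p ∈ J → q ∈ J → CC M b (lam • e p + mu • e q) →
      CC M b (lam • e (Equiv.swap u w p) + mu • e (Equiv.swap u w q)) := by
    intro u w hu hw p q hp hq hh
    by_cases huw : u = w
    · subst huw; simpa using hh
    · have hz : ∀ r, r ∉ J → (lam • e p + mu • e q : ι → F) r = 0 := by
        intro r hr
        simp only [Pi.add_apply, Pi.smul_apply, supp_e hp r hr, supp_e hq r hr, smul_zero, add_zero]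
      have := CCswap hM hh huw hac (hz a haJ) (hz c hcJ)
      have heq : (fun k => (lam • e p + mu • e q : ι → F) (Equiv.swap u w k)) =
          lam • e (Equiv.swap u w p) + mu • e (Equiv.swap u w q) := by
        rw [← e_swap, ← e_swap]
        rfl
      rwa [heq] at this
  have h1 := hsw i x hi hx i i' hi hi' h
  rw [Equiv.swap_apply_left] at h1
  have hmem : Equiv.swap i x i' ∈ J := by
    by_cases h : i' = x
    · subst h; rw [Equiv.swap_apply_right]; exact hi
    · rw [Equiv.swap_apply_of_ne_of_ne (Ne.symm hii) h]; exact hi'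
  have hne : Equiv.swap i x i' ≠ x := by
    intro h
    have := congrArg (Equiv.swap i x) h
    rw [Equiv.swap_apply_self, Equiv.swap_apply_right] at this
    exact hii this.symm
  have h2 := hsw (Equiv.swap i x i') y hmem hy x (Equiv.swap i x i') hx hmem h1
  rw [Equiv.swap_apply_left, Equiv.swap_apply_of_ne_of_ne (Ne.symm hne) hxy] at h2
  exact h2

theorem sq_half {lam mu : F} (h1 : 2 * (lam * lam) = 1) (h2 : 2 * (mu * mu) = 1) :
    2 * (lam * mu) = 1 ∨ 2 * (lam * mu) = -1 := by
  apply mul_self_eq_one_iff.1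
  have : 2 * (lam * mu) * (2 * (lam * mu)) = (2 * (lam * lam)) * (2 * (mu * mu)) := by ring
  rw [this, h1, h2, mul_one]

/-- Lemma B -/
theorem half_of_t2 (hM : Base M) (hJ : J.card = 4) (hcard : J.card + 2 ≤ Fintype.card ι)
    {g : OGrp (Q0 F ι)} (hg : g ∈ KK M J b hb)
    (hall : ∀ j ∈ J, T2 J (g (e j))) : ∃ h : ι → F, CC M b h ∧ Half J h := by
  obtain ⟨j₁, hj₁⟩ : ∃ j, j ∈ J := by
    have : 0 < J.card := by omega
    exact Finset.card_pos.1 this
  obtain ⟨i, hi, i', hi', hii, lam, mu, hl, hm, hf₁⟩ := hall j₁ hj₁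
  obtain ⟨k, hk, hki, hki'⟩ := exists_ne2_mem hJ i i'
  -- some `g e_j` has a nonzero `k`-coordinate
  have hex : ∃ j ∈ J, (g (e j)) k ≠ 0 := by
    by_contra hcon
    push Not at hcon
    have h1 : g⁻¹ (e k) = 0 := by
      funext j
      by_cases hj : j ∈ J
      · rw [← dot_e (g⁻¹ (e k)) j, dotProduct_comm, ← dot_inv hM.two, dot_e]
        exact hcon j hj
      · exact supp_of_K hM ((KK M J b hb).inv_mem hg) (supp_e hk) j hj
    have h3 := congrArg g h1
    rw [ap_inv_self] at h3
    have h4 : g (0 : ι → F) = 0 := map_zero _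
    rw [h4] at h3
    exact e_ne_zero k h3
  obtain ⟨j, hj, hjk⟩ := hex
  have hjj : j ≠ j₁ := by
    rintro rfl
    apply hjk
    rw [hf₁]
    simp [e, Pi.single_eq_of_ne hki, Pi.single_eq_of_ne hki']
  have hortho : (g (e j₁)) ⬝ᵥ (g (e j)) = 0 := by
    rw [OGrp_dot hM.two, e_dot_e_ne (Ne.symm hjj)]
  have hl0 : lam ≠ 0 := by rintro rfl; simp at hl
  have hm0 : mu ≠ 0 := by rintro rfl; simp at hm
  rw [hf₁, add_dotProduct, smul_dotProduct, smul_dotProduct, e_dot, e_dot, smul_eq_mul, smul_eq_mul] at hortho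
  obtain ⟨p, hp, q, hq, hpq, lam', mu', hl', hm', hf₂⟩ := hall j hj
  have hl0' : lam' ≠ 0 := by rintro rfl; simp at hl'
  have hm0' : mu' ≠ 0 := by rintro rfl; simp at hm'
  -- coordinates of `g e_j`
  have hco : ∀ r, (g (e j)) r = (if r = p then lam' else 0) + (if r = q then mu' else 0) := by
    intro r
    rw [hf₂]
    simp only [Pi.add_apply, Pi.smul_apply, smul_eq_mul, e, Pi.single_apply, mul_ite, mul_one, mul_zero]
  have hz : ∀ r, (g (e j)) r = 0 ↔ (r ≠ p ∧ r ≠ q) := by
    intro r
    rw [hco]
    by_cases h1 : r = p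
    · have h2 : r ≠ q := by rw [h1]; exact hpq
      simp [h1, hpq, hl0']
    · by_cases h2 : r = q
      · simp [h2, Ne.symm hpq, hm0']
      · simp [h1, h2]
  -- both coordinates at `i`, `i'` vanish
  have hkpq : k = p ∨ k = q := by
    by_contra h
    push Not at h
    exact hjk ((hz k).2 h)
  have hboth : (g (e j)) i = 0 ∧ (g (e j)) i' = 0 := by
    by_cases h1 : (g (e j)) i = 0
    · refine ⟨h1, ?_⟩
      rw [h1, mul_zero, zero_add] at hortho
      exact (mul_eq_zero.1 hortho).resolve_left hm0
    · exfalso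
      have h2 : (g (e j)) i' ≠ 0 := by
        intro h
        rw [h, mul_zero, add_zero] at hortho
        exact h1 ((mul_eq_zero.1 hortho).resolve_left hl0)
      rw [hz] at h1
      rw [Ne, hz] at h2
      have h1' : i = p ∨ i = q := by
        by_contra h; push Not at h; exact h1 h
      have h2' : i' = p ∨ i' = q := by
        by_contra h; push Not at h; exact h2 h
      rcases hkpq with rfl | rfl
      · rcases h1' with h | h
        · exact hki h.symm
        · rcases h2' with h' | h'
          · exact hki' h'.symm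
          · exact hii (h.trans h'.symm)
      · rcases h1' with h | h
        · rcases h2' with h' | h'
          · exact hii (h.trans h'.symm)
          · exact hki' h'.symm
        · exact hki h.symm
  -- the pair vector
  have hC₁ : CC M b (lam • e i + mu • e i') := by
    rw [← hf₁]; exact CCK hM hg (CCe hM j₁)
  have hC₂ : CC M b (lam • e j₁ + mu • e j) := CC_pair hM hcard hi hi' hj₁ hj hii (Ne.symm hjj) hC₁
  have hC₃ := CCK hM hg hC₂
  rw [ap_add, ap_smul, ap_smul, hf₁, hf₂] at hC₃
  refine ⟨_, hC₃, ?_, ?_⟩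
  · intro r hr
    simp only [Pi.add_apply, Pi.smul_apply, supp_e hi r hr, supp_e hi' r hr, supp_e hp r hr, supp_e hq r hr,
      smul_zero, add_zero]
  · -- `J = {i, i', p, q}`
    have hip : i ≠ p ∧ i ≠ q := (hz i).1 hboth.1
    have hip' : i' ≠ p ∧ i' ≠ q := (hz i').1 hboth.2
    have hJeq : J = {i, i', p, q} := by
      symm
      apply Finset.eq_of_subset_of_card_le
      · intro r hr
        simp only [Finset.mem_insert, Finset.mem_singleton] at hr
        rcases hr with rfl | rfl | rfl | rfl <;> assumption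
      · rw [hJ]
        rw [Finset.card_insert_of_notMem (by simp [hii, hip.1, hip.2]),
          Finset.card_insert_of_notMem (by simp [hip'.1, hip'.2]),
          Finset.card_insert_of_notMem (by simp [hpq]), Finset.card_singleton]
    intro r hr
    rw [hJeq] at hr
    simp only [Finset.mem_insert, Finset.mem_singleton] at hr
    simp only [Pi.add_apply, Pi.smul_apply, smul_eq_mul, e, Pi.single_apply, mul_ite, mul_one, mul_zero]
    rcases hr with rfl | rfl | rfl | rfl
    · simp only [hii, hip.1, hip.2, if_true, if_false, add_zero, mul_zero]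
      exact sq_half hl hl
    · simp only [Ne.symm hii, hip'.1, hip'.2, if_true, if_false, add_zero, zero_add, mul_zero]
      exact sq_half hm hl |>.imp (fun h => by rw [mul_comm lam]; exact h) (fun h => by rw [mul_comm lam]; exact h)
    · simp only [Ne.symm hip.1, Ne.symm hip'.1, hpq, if_true, if_false, add_zero, zero_add, mul_zero]
      exact sq_half hm hl'
    · simp only [Ne.symm hip.2, Ne.symm hip'.2, Ne.symm hpq, if_true, if_false, add_zero, zero_add, mul_zero]
      exact sq_half hm hm'

end Cfsg.Agent.H92.FrD
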