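import Cfsg.Agent.H92.FrDb

/-!
# Orthogonal frames, four coordinates: the case of full support
-/

set_option autoImplicit false
set_option linter.unusedSectionVars false
set_option linter.unusedVariables false

namespace Cfsg.Agent.H92.FrD

open QuadraticMap Module Cfsg.Agent.Orth Cfsg.Agent.GeoMax.Ort Cfsg.Agent.SmallDim.Fr
open Matrix

variable {F : Type*} [Field F] {ι : Type} [Fintype ι] [DecidableEq ι]
variable {M : Subgroup (OGrp (Q0 F ι))}
variable {J : Finset ι} {b : ι} {hb : b ∉ J}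

theorem finite_OGrp [Finite F] : Finite (OGrp (Q0 F ι)) := by
  refine Finite.of_injective (fun g : OGrp (Q0 F ι) => ((g : (ι → F) ≃ₗ[F] (ι → F)) : (ι → F) → (ι → F))) ?_
  intro g h hgh
  exact OGrp_ext fun x => congrFun hgh x

/-- `w x - x` is a combination of `u`, `v` for all `x` -/
def Pl (u v : ι → F) (w : OGrp (Q0 F ι)) : Prop := ∀ x, ∃ α β : F, w x = x + α • u + β • v

theorem Pl.one (u v : ι → F) : Pl u v (1 : OGrp (Q0 F ι)) := fun x => ⟨0, 0, by simp⟩

theorem Pl.mul {u v : ι → F} {w w' : OGrp (Q0 F ι)} (h : Pl u v w) (h' : Pl u v w') : Pl u v (w * w') := by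
  intro x
  obtain ⟨α, β, h1⟩ := h' x
  obtain ⟨α', β', h2⟩ := h (w' x)
  refine ⟨α + α', β + β', ?_⟩
  rw [mul_ap, h2, h1, add_smul, add_smul]; abel

theorem Pl.pow {u v : ι → F} {w : OGrp (Q0 F ι)} (h : Pl u v w) (n : ℕ) : Pl u v (w ^ n) := by
  induction n with
  | zero => rw [pow_zero]; exact Pl.one u v
  | succ n ih => rw [pow_succ]; exact ih.mul h

theorem Pl.left {u v : ι → F} (hu : u ⬝ᵥ u = 1) : Pl u v (rf u : OGrp (Q0 F ι)) := by
  intro x
  refine ⟨-(2 * (x ⬝ᵥ u)), 0, ?_⟩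
  rw [rf_ap1 hu, zero_smul, add_zero, neg_smul]; abel

theorem Pl.right {u v : ι → F} (hv : v ⬝ᵥ v = 1) : Pl u v (rf v : OGrp (Q0 F ι)) := by
  intro x
  refine ⟨0, -(2 * (x ⬝ᵥ v)), ?_⟩
  rw [rf_ap1 hv, zero_smul, add_zero, neg_smul]; abel

/-- a reflection inverts `r s` hence its powers -/
theorem conj_pow_inv {G : Type*} [Group G] {r s : G} (hr : r * r = 1) (hs : s * s = 1) (n : ℕ) :
    r * (r * s) ^ n * r = ((r * s) ^ n)⁻¹ := by
  have hr' : r⁻¹ = r := inv_eq_of_mul_eq_one_left hr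
  have hs' : s⁻¹ = s := inv_eq_of_mul_eq_one_left hs
  have h1 : r * (r * s) * r⁻¹ = (r * s)⁻¹ := by
    rw [_root_.mul_inv_rev, hr', hs', ← mul_assoc, hr, one_mul]
  calc r * (r * s) ^ n * r = r * (r * s) ^ n * r⁻¹ := by rw [hr']
    _ = (r * (r * s) * r⁻¹) ^ n := by rw [conj_pow]
    _ = ((r * s) ^ n)⁻¹ := by rw [h1, inv_pow]

/-- Step C1: the product of the two reflections has odd order -/
theorem odd_order [Finite F] (hb : b ∉ J) (hM : Base M) (hJ : J.card = 4) (hst : Stab M J) {f : ι → F}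
    (hf : CC M b f)
    (hs : ∀ i, i ∉ J → f i = 0) (hfull : ∀ i ∈ J, f i ≠ 0) {i : ι} (hi : i ∈ J) :
    ¬ 2 ∣ orderOf (rf (e i) * rf f : OGrp (Q0 F ι)) := by
  have := finite_OGrp (F := F) (ι := ι)
  intro h2
  obtain ⟨m, hm⟩ := h2
  set y : OGrp (Q0 F ι) := rf (e i) * rf f with hy
  have hpos : 0 < orderOf y := orderOf_pos y
  have hm0 : 0 < m := by omega
  set z : OGrp (Q0 F ι) := y ^ m with hz
  have hz1 : z ≠ 1 := by
    intro h
    have := orderOf_dvd_of_pow_eq_one (x := y) (n := m) h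
    have := Nat.le_of_dvd hm0 this
    omega
  have hzz : z * z = 1 := by
    rw [hz, ← pow_add, ← two_mul, ← hm, pow_orderOf_eq_one]
  have hzinv : z⁻¹ = z := inv_eq_of_mul_eq_one_left hzz
  have hr2 : (rf (e i) : OGrp (Q0 F ι)) * rf (e i) = 1 := rf_mul_self _
  have hs2 : (rf f : OGrp (Q0 F ι)) * rf f = 1 := rf_mul_self _
  have hcr : (rf (e i) : OGrp (Q0 F ι)) * z * rf (e i) = z := by
    rw [hz, hy, conj_pow_inv hr2 hs2, ← hy, ← hz, hzinv]
  have hyK : y ∈ KK M J b hb := (KK M J b hb).mul_mem (K_e hM hi) (CC_mem_KK hf hs)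
  have hzK : z ∈ KK M J b hb := (KK M J b hb).pow_mem hyK m
  have hzr : z * rf (e i) * z⁻¹ = rf (e i) := by
    calc z * rf (e i) * z⁻¹ = (rf (e i) * rf (e i)) * z * rf (e i) * z⁻¹ := by rw [hr2, one_mul]
      _ = rf (e i) * (rf (e i) * z * rf (e i)) * z⁻¹ := by simp only [mul_assoc]
      _ = rf (e i) * z * z⁻¹ := by rw [hcr]
      _ = rf (e i) := by rw [mul_inv_cancel_right]
  have hzy : z * y * z⁻¹ = y := by
    rw [hz, mul_inv_eq_iff_eq_mul, (Commute.refl y).pow_left m]
  have hsdef : (rf f : OGrp (Q0 F ι)) = rf (e i) * y := by rw [hy, ← mul_assoc, hr2, one_mul]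
  have hzs : z * rf f * z⁻¹ = rf f := by
    rw [hsdef]
    calc z * (rf (e i) * y) * z⁻¹ = (z * rf (e i) * z⁻¹) * (z * y * z⁻¹) := by group
      _ = rf (e i) * y := by rw [hzr, hzy]
  have hze : z (e i) = e i ∨ z (e i) = -e i := by
    apply eq_or_neg_of_rf hM.two (by rw [OGrp_self]; exact e_dot_e_self i) (e_dot_e_self i)
    rw [← rf_conj, hzr]
  have hzf : z f = f ∨ z f = -f := by
    apply eq_or_neg_of_rf hM.two (by rw [OGrp_self]; exact hf.1) hf.1
    rw [← rf_conj, hzs]
  have hPl : Pl (e i) f z := by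
    rw [hz]; exact ((Pl.left (e_dot_e_self i)).mul (Pl.right hf.1)).pow m
  have hdot : (z (e i)) ⬝ᵥ (z f) = f i := by rw [OGrp_dot hM.two, e_dot]
  have hfi := hfull i hi
  have h2 := hM.two
  rcases hze with hze | hze
  · rcases hzf with hzf | hzf
    · -- `z = 1`
      apply hz1
      refine OGrp_ext fun x => ?_
      change z x = x
      obtain ⟨α, β, h⟩ := hPl x
      have h3 : z (z x) = x := by rw [← mul_ap, hzz]; rfl
      rw [h, ap_add, ap_add, ap_smul, ap_smul, hze, hzf, h] at h3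
      have h4 : (2 : F) • (α • e i + β • f) = 0 := by
        rw [two_smul]
        have : x + α • e i + β • f + α • e i + β • f - x = 0 := by rw [h3]; simp
        rw [← this]; abel
      rcases smul_eq_zero.1 h4 with h5 | h5
      · exact absurd h5 h2
      · rw [h, add_assoc, h5, add_zero]
    · rw [hze, hzf, dotProduct_neg, e_dot] at hdot
      exact absurd (neg_eq_iff_add_eq_zero.1 hdot) (by rw [← two_mul]; exact mul_ne_zero h2 hfi)
  · rcases hzf with hzf | hzf
    · rw [hze, hzf, neg_dotProduct, e_dot] at hdot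
      exact absurd (neg_eq_iff_add_eq_zero.1 hdot) (by rw [← two_mul]; exact mul_ne_zero h2 hfi)
    · -- the main case
      have hKh : rf (e i) * z ∈ KK M J b hb := (KK M J b hb).mul_mem (K_e hM hi) hzK
      have hfix : (rf (e i) * z : OGrp (Q0 F ι)) (e i) = e i := by
        rw [mul_ap, hze, ap_neg, rf_self (by rw [e_dot_e_self]; exact one_ne_zero), neg_neg]
      have hMonh := K_stab hM hJ hst hi hKh hfix
      have hMonz : Mon z := by
        have : z = rf (e i) * (rf (e i) * z) := by rw [← mul_assoc, hr2, one_mul]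
        rw [this]; exact (mon_rf_e i).mul hMonh
      obtain ⟨k, hk, hki⟩ := exists_ne_mem hJ i
      obtain ⟨α, β, h⟩ := hPl (e k)
      obtain ⟨m', hm'⟩ := hMonz k
      obtain ⟨l, hl, hli, hlk⟩ := exists_ne2_mem hJ i k
      obtain ⟨l', hl', hli', hlk', hll'⟩ := exists_ne3_mem hJ i k l
      have hcoord : ∀ r, r ≠ i → r ≠ k → (z (e k)) r = β * f r := by
        intro r hri hrk
        rw [h]
        simp [e, hri, hrk]
      have hβ : β = 0 := by
        by_contra hβ
        have h3 : (z (e k)) l ≠ 0 := by rw [hcoord l hli hlk]; exact mul_ne_zero hβ (hfull l hl)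
        have h4 : (z (e k)) l' ≠ 0 := by rw [hcoord l' hli' hlk']; exact mul_ne_zero hβ (hfull l' hl')
        have h5 : ∀ r, (z (e k)) r ≠ 0 → r = m' := by
          intro r hr
          by_contra hrm
          apply hr
          rcases hm' with hm' | hm' <;> rw [hm'] <;> simp [e, hrm]
        exact hll' ((h5 l' h4).trans (h5 l h3).symm)
      rw [hβ, zero_smul, add_zero] at h
      have hkk : (z (e k)) k = 1 := by
        rw [h]; simp [e, hki]
      have hzk : z (e k) = e k := by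
        have hmk : m' = k := by
          by_contra hne
          rcases hm' with hm' | hm' <;> rw [hm'] at hkk <;> simp [e, Ne.symm hne] at hkk
        rcases hm' with hm' | hm'
        · rw [hm', hmk]
        · exfalso
          rw [hm', hmk] at hkk
          simp only [Pi.neg_apply, e, Pi.single_eq_same] at hkk
          apply h2
          have : (2 : F) = 1 + 1 := by norm_num
          rw [this]
          nth_rewrite 1 [← hkk]
          ring
      have h6 : (z f) k = f k := by
        rw [← dot_e (z f) k, dot_inv h2, hzinv, hzk, dot_e]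
      rw [hzf] at h6
      simp only [Pi.neg_apply] at h6
      exact absurd (neg_eq_iff_add_eq_zero.1 h6) (by rw [← two_mul]; exact mul_ne_zero h2 (hfull k hk))

/-- Step C2: a reflection in `K` swapping `e i` and `± f` -/
theorem exists_refl [Finite F] (hb : b ∉ J) (hM : Base M) (hJ : J.card = 4) (hst : Stab M J) {f : ι → F}
    (hf : CC M b f)
    (hs : ∀ i, i ∉ J → f i = 0) (hfull : ∀ i ∈ J, f i ≠ 0) {i : ι} (hi : i ∈ J) :
    ∃ (u : ι → F) (ε : F), (ε = 1 ∨ ε = -1) ∧ u ⬝ᵥ u = 1 ∧ (∀ k, k ∉ J → u k = 0) ∧ rf u ∈ KK M J b hb ∧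
      (rf u : OGrp (Q0 F ι)) (e i) = ε • f := by
  have := finite_OGrp (F := F) (ι := ι)
  have hodd := odd_order hb hM hJ hst hf hs hfull hi
  set y : OGrp (Q0 F ι) := rf (e i) * rf f with hy
  have hyn : y ^ orderOf y = 1 := pow_orderOf_eq_one y
  obtain ⟨m, hm⟩ : ∃ m, orderOf y = 2 * m + 1 := by
    have : Odd (orderOf y) := by
      rw [← Nat.not_even_iff_odd]; intro h; exact hodd h.two_dvd
    exact this
  rw [hm] at hyn
  set r : OGrp (Q0 F ι) := rf (e i) with hr
  have hr2 : r * r = 1 := rf_mul_self _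
  have hs2 : (rf f : OGrp (Q0 F ι)) * rf f = 1 := rf_mul_self _
  have hyK : y ∈ KK M J b hb := (KK M J b hb).mul_mem (K_e hM hi) (CC_mem_KK hf hs)
  set z : OGrp (Q0 F ι) := y ^ (m + 1) with hz
  set v : OGrp (Q0 F ι) := y ^ ((m + 1) * (m + 1)) with hv
  have hzz : z * z = y := by
    rw [hz, ← pow_add]
    have : m + 1 + (m + 1) = (2 * m + 1) + 1 := by ring
    rw [this, pow_succ, hyn, one_mul]
  have hvv : v * v = z := by
    rw [hv, ← pow_add]
    have : (m + 1) * (m + 1) + (m + 1) * (m + 1) = (2 * m + 1) * (m + 1) + (m + 1) := by ring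
    rw [this, pow_add, pow_mul, hyn, one_pow, one_mul]
  have hrz : r * z * r = z⁻¹ := conj_pow_inv hr2 hs2 (m + 1)
  have hrv : r * v * r = v⁻¹ := conj_pow_inv hr2 hs2 ((m + 1) * (m + 1))
  have hrz' : r * z = z⁻¹ * r := by rw [← hrz, mul_assoc, hr2, mul_one]
  have hrv' : r * v = v⁻¹ * r := by rw [← hrv, mul_assoc, hr2, mul_one]
  have hzK : z ∈ KK M J b hb := (KK M J b hb).pow_mem hyK _
  have hvK : v ∈ KK M J b hb := (KK M J b hb).pow_mem hyK _
  -- `rf f = rf (z⁻¹ e_i)`
  have h1 : (rf f : OGrp (Q0 F ι)) = rf (z⁻¹ (e i)) := by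
    rw [← rf_conj, inv_inv]
    have h3 : (rf f : OGrp (Q0 F ι)) = r * y := by rw [hy, ← mul_assoc, hr2, one_mul]
    rw [h3, ← hr, ← hzz, ← mul_assoc, hrz']
  have h2 : z⁻¹ (e i) = f ∨ z⁻¹ (e i) = -f := by
    apply eq_or_neg_of_rf hM.two (by rw [OGrp_self]; exact e_dot_e_self i) hf.1
    exact h1.symm
  -- `t = z⁻¹ r = rf (v⁻¹ e_i)`
  have h3 : z⁻¹ * r = rf (v⁻¹ (e i)) := by
    rw [← rf_conj, inv_inv, ← hr, mul_assoc, hrv', ← mul_assoc, ← hvv, _root_.mul_inv_rev]
  have h4 : (rf (v⁻¹ (e i)) : OGrp (Q0 F ι)) (e i) = -(z⁻¹ (e i)) := by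
    rw [← h3, mul_ap, hr, rf_self (by rw [e_dot_e_self]; exact one_ne_zero), ap_neg]
  obtain ⟨ε, hε, hεf⟩ : ∃ ε : F, (ε = 1 ∨ ε = -1) ∧ -(z⁻¹ (e i)) = ε • f := by
    rcases h2 with h2 | h2
    · exact ⟨-1, Or.inr rfl, by rw [h2, neg_one_smul]⟩
    · exact ⟨1, Or.inl rfl, by rw [h2, neg_neg, one_smul]⟩
  refine ⟨v⁻¹ (e i), ε, hε, by rw [OGrp_self]; exact e_dot_e_self i, ?_, ?_, by rw [h4, hεf]⟩
  · exact supp_of_K hM ((KK M J b hb).inv_mem hvK) (supp_e hi)
  · rw [← h3]
    exact (KK M J b hb).mul_mem ((KK M J b hb).inv_mem hzK) (K_e hM hi)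

/-- the computation of Step C4: a product of two reflections which moves all lines `⟨e k⟩`, `k ∈ J`, has
orthogonal roots -/
theorem ortho_of_trace (h2 : (2 : F) ≠ 0) (hJ : J.card = 4) {u v : ι → F} (hu : u ⬝ᵥ u = 1) (hv : v ⬝ᵥ v = 1)
    (hus : ∀ k, k ∉ J → u k = 0) (hvs : ∀ k, k ∉ J → v k = 0)
    (h0 : ∀ k ∈ J, ((rf u * rf v : OGrp (Q0 F ι)) (e k)) k = 0) : u ⬝ᵥ v = 0 := by
  have hsum : ∀ x y : ι → F, (∀ k, k ∉ J → x k = 0) → ∑ k ∈ J, x k * y k = x ⬝ᵥ y := by
    intro x y hx
    rw [dotProduct]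
    apply Finset.sum_subset (Finset.subset_univ J)
    intro k _ hk
    rw [hx k hk, zero_mul]
  have hk : ∀ k, ((rf u * rf v : OGrp (Q0 F ι)) (e k)) k =
      1 - 2 * (v k * v k) - 2 * (u k * u k) + 4 * (u ⬝ᵥ v) * (u k * v k) := by
    intro k
    rw [mul_ap, rf_ap1 hv, rf_ap1 hu, sub_dotProduct, smul_dotProduct, e_dot, e_dot, dotProduct_comm v u]
    simp only [Pi.sub_apply, Pi.smul_apply, smul_eq_mul, e, Pi.single_eq_same]
    ring
  have hs : ∑ k ∈ J, ((rf u * rf v : OGrp (Q0 F ι)) (e k)) k = 0 := Finset.sum_eq_zero h0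
  simp only [hk, Finset.sum_add_distrib, Finset.sum_sub_distrib, ← Finset.mul_sum, Finset.sum_const, hJ,
    hsum u u hus, hsum v v hvs, hsum u v hus, hu, hv] at hs
  have h4 : (4 : F) * ((u ⬝ᵥ v) * (u ⬝ᵥ v)) = 0 := by
    rw [← hs]; simp; ring
  have h5 : (4 : F) ≠ 0 := by
    have : (4 : F) = 2 * 2 := by norm_num
    rw [this]; exact mul_ne_zero h2 h2
  exact mul_self_eq_zero.1 ((mul_eq_zero.1 h4).resolve_left h5)

/-- Lemma C -/
theorem half_of_full [Finite F] (hb : b ∉ J) (hM : Base M) (hJ : J.card = 4) (hst : Stab M J)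
    {g : OGrp (Q0 F ι)} (hg : g ∈ KK M J b hb) {j₀ : ι} (hj₀ : j₀ ∈ J) (hfull : ∀ i ∈ J, (g (e j₀)) i ≠ 0) :
    Half J (g (e j₀)) := by
  have h2 := hM.two
  set f : ι → F := g (e j₀) with hfdef
  have hf : CC M b f := CCK hM hg (CCe hM j₀)
  have hs : ∀ i, i ∉ J → f i = 0 := supp_of_K hM hg (supp_e hj₀)
  have hex := fun (i : ι) (hi : i ∈ J) => exists_refl hb hM hJ hst hf hs hfull hi
  choose! u ε hε huu hus huK hue using hex
  have hε2 : ∀ i ∈ J, ε i * ε i = 1 := by
    intro i hi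
    rcases hε i hi with h | h <;> rw [h] <;> ring
  have hε0 : ∀ i ∈ J, ε i ≠ 0 := by
    intro i hi h
    have := hε2 i hi
    rw [h, mul_zero] at this
    exact zero_ne_one this
  -- `e i - ε f = c u`
  have hc : ∀ i ∈ J, e i - ε i • f = (2 * u i i) • u i := by
    intro i hi
    have := hue i hi
    rw [rf_ap1 (huu i hi), e_dot] at this
    rw [← this]; abel
  have hc0 : ∀ i ∈ J, u i i ≠ 0 := by
    intro i hi h
    have h1 := hc i hi
    rw [h, mul_zero, zero_smul] at h1
    obtain ⟨l, hl, hli⟩ := exists_ne_mem hJ i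
    have h3 := congrFun h1 l
    simp only [Pi.sub_apply, Pi.smul_apply, smul_eq_mul, e, Pi.single_eq_of_ne hli, Pi.zero_apply, zero_sub] at h3
    exact mul_ne_zero (hε0 i hi) (hfull l hl) (neg_eq_zero.1 h3)
  have hcu : ∀ i ∈ J, ∀ k, k ≠ i → 2 * u i i * u i k = -(ε i * f k) := by
    intro i hi k hk
    have h1 := congrFun (hc i hi) k
    simp only [Pi.sub_apply, Pi.smul_apply, smul_eq_mul, e, Pi.single_eq_of_ne hk, zero_sub] at h1
    exact h1.symm
  have hcui : ∀ i ∈ J, 2 * u i i * u i i = 1 - ε i * f i := by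
    intro i hi
    have h1 := congrFun (hc i hi) i
    simp only [Pi.sub_apply, Pi.smul_apply, smul_eq_mul, e, Pi.single_eq_same] at h1
    exact h1.symm
  have hu0 : ∀ i ∈ J, ∀ k ∈ J, u i k ≠ 0 := by
    intro i hi k hk
    by_cases hki : k = i
    · rw [hki]; exact hc0 i hi
    · intro h
      have := hcu i hi k hki
      rw [h, mul_zero] at this
      exact mul_ne_zero (hε0 i hi) (hfull k hk) (neg_eq_zero.1 this.symm)
  -- the elements `rf u_i * g` are monomial
  have hMonI : ∀ i ∈ J, Mon (rf (u i) * g) := by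
    intro i hi
    apply K_trans hM hJ hst hj₀ hi ((KK M J b hb).mul_mem (huK i hi) hg)
    rw [mul_ap, ← hfdef]
    have h1 : (rf (u i) : OGrp (Q0 F ι)) (ε i • f) = e i := by rw [← hue i hi, rf_rf]
    rw [ap_smul] at h1
    have h3 : (rf (u i) : OGrp (Q0 F ι)) f = ε i • e i := by
      rw [← h1, smul_smul, hε2 i hi, one_smul]
    rw [h3]
    rcases hε i hi with h | h
    · left; rw [h, one_smul]
    · right; rw [h, neg_one_smul]
  have hMonX : ∀ i ∈ J, ∀ j ∈ J, Mon (rf (u i) * rf (u j) : OGrp (Q0 F ι)) := by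
    intro i hi j hj
    have : (rf (u i) * rf (u j) : OGrp (Q0 F ι)) = (rf (u i) * g) * (rf (u j) * g)⁻¹ := by
      rw [_root_.mul_inv_rev, rf_inv]; group
    rw [this]
    exact (hMonI i hi).mul ((hMonI j hj).inv h2)
  -- orthogonality
  have hortho : ∀ i ∈ J, ∀ j ∈ J, i ≠ j → u i ⬝ᵥ u j = 0 := by
    intro i hi j hj hij
    set x : OGrp (Q0 F ι) := rf (u i) * rf (u j) with hx
    have hMx := hMonX i hi j hj
    -- `x` fixes no `e k`
    have hnofix : ∀ k ∈ J, x (e k) ≠ e k := by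
      intro k hk h
      have h0 : (rf (u i) : OGrp (Q0 F ι)) ((rf (u j) : OGrp (Q0 F ι)) (e k)) = e k := h
      have h1 : (rf (u j) : OGrp (Q0 F ι)) (e k) = (rf (u i) : OGrp (Q0 F ι)) (e k) := by
        calc (rf (u j) : OGrp (Q0 F ι)) (e k)
            = (rf (u i) : OGrp (Q0 F ι)) ((rf (u i) : OGrp (Q0 F ι)) ((rf (u j) : OGrp (Q0 F ι)) (e k))) :=
              (rf_rf _ _).symm
          _ = (rf (u i) : OGrp (Q0 F ι)) (e k) := by rw [h0]
      rw [rf_ap1 (huu j hj), rf_ap1 (huu i hi), e_dot, e_dot] at h1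
      have h3 : (2 * u j k) • u j = (2 * u i k) • u i := by
        have := congrArg (fun w => e k - w) h1
        simpa using this
      -- compare coordinates
      have h4 : ∀ l, u j k * u j l = u i k * u i l := by
        intro l
        have h5 := congrFun h3 l
        simp only [Pi.smul_apply, smul_eq_mul, mul_assoc] at h5
        exact mul_left_cancel₀ h2 h5
      obtain ⟨l, hl, hli, hlj⟩ := exists_ne2_mem hJ i j
      -- `a_i = 2 u_i(i)`, etc.
      have e1 := hcu i hi l hli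
      have e2 := hcu j hj l hlj
      have e3 := hcui i hi
      have e4 := hcu j hj i hij
      have h6 := h4 l
      have h7 := h4 i
      have hfl := hfull l hl
      -- from `h4 l` and `h4 i`: `u_j(l) u_i(i) = u_j(i) u_i(l)`
      have h8 : u j l * u i i = u j i * u i l := by
        have h9 : u j k * (u j l * u i i) = u j k * (u j i * u i l) := by
          calc u j k * (u j l * u i i) = (u j k * u j l) * u i i := by ring
            _ = (u i k * u i l) * u i i := by rw [h6]
            _ = (u i k * u i i) * u i l := by ring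
            _ = (u j k * u j i) * u i l := by rw [h7]
            _ = u j k * (u j i * u i l) := by ring
        exact mul_left_cancel₀ (hu0 j hj k hk) h9
      -- multiply by `(2 u_j(j)) (2 u_i(i))`
      have h10 : -(ε j * f l) * (1 - ε i * f i) = -(ε j * f i) * -(ε i * f l) := by
        rw [← e2, ← e3, ← e4, ← e1]
        calc 2 * u j j * u j l * (2 * u i i * u i i) = (2 * u j j) * (2 * u i i) * (u j l * u i i) := by ring
          _ = (2 * u j j) * (2 * u i i) * (u j i * u i l) := by rw [h8]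
          _ = 2 * u j j * u j i * (2 * u i i * u i l) := by ring
      have h11 : ε j * f l = 0 := by linear_combination -h10
      exact mul_ne_zero (hε0 j hj) hfl h11
    -- `x` negates no `e k`
    have hα : ∀ l, ∃ α : F, x (e l) = e l + α • u i + (-(2 * u j l)) • u j := by
      intro l
      refine ⟨-(2 * ((e l - (2 * u j l) • u j) ⬝ᵥ u i)), ?_⟩
      rw [hx, mul_ap, rf_ap1 (huu j hj), e_dot, rf_ap1 (huu i hi), neg_smul, neg_smul]
      abel
    have hnoneg : ∀ k ∈ J, x (e k) ≠ -e k := by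
      intro k hk h
      have hkinv : x⁻¹ (e k) = -e k := by
        have := congrArg (fun w => x⁻¹ w) h
        simp only [inv_ap_self, ap_neg] at this
        exact (neg_eq_iff_eq_neg.2 this).symm
      -- the vector `z`
      have hcoord : ∀ l ∈ J, l ≠ k → ∃ γ : F, γ ≠ 0 ∧ x (e l) - e l = γ • (u j k • u i - u i k • u j) := by
        intro l hl hlk
        obtain ⟨α, hα⟩ := hα l
        have hlk0 : (x (e l)) k = 0 := by
          rw [← dot_e (x (e l)) k, dot_inv h2, hkinv, dotProduct_neg, e_dot_e_ne hlk, neg_zero]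
        have h3 : α * u i k = 2 * u j l * u j k := by
          have h4 := hlk0
          rw [hα] at h4
          simp only [Pi.add_apply, Pi.smul_apply, smul_eq_mul, e, Pi.single_eq_of_ne (Ne.symm hlk)] at h4
          linear_combination h4
        have hik := hu0 i hi k hk
        refine ⟨2 * u j l / u i k, div_ne_zero (mul_ne_zero h2 (hu0 j hj l hl)) hik, ?_⟩
        have hα' : α = 2 * u j l / u i k * u j k := by
          field_simp
          linear_combination h3
        rw [hα, smul_sub, smul_smul, smul_smul, ← hα']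
        have h5 : 2 * u j l / u i k * u i k = 2 * u j l := by field_simp
        rw [h5, neg_smul]; abel
      -- three indices
      obtain ⟨l₁, hl₁, hl₁k⟩ := exists_ne_mem hJ k
      obtain ⟨l₂, hl₂, hl₂k, hl₂₁⟩ := exists_ne2_mem hJ k l₁
      obtain ⟨l₃, hl₃, hl₃k, hl₃₁, hl₃₂⟩ := exists_ne3_mem hJ k l₁ l₂
      have hz : ∀ l ∈ J, l ≠ k → (u j k • u i - u i k • u j) l ≠ 0 := by
        intro l hl hlk hzl
        obtain ⟨γ, hγ, hγe⟩ := hcoord l hl hlk
        have h3 := congrFun hγe l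
        rw [Pi.smul_apply, hzl, smul_zero, Pi.sub_apply] at h3
        obtain ⟨m, hm⟩ := hMx l
        have hxl : (x (e l)) l = 1 := by
          rw [sub_eq_zero.1 h3]; simp [e]
        have hml : m = l := by
          by_contra hne
          rcases hm with hm | hm <;> rw [hm] at hxl <;> simp [e, Ne.symm hne] at hxl
        rcases hm with hm | hm
        · exact hnofix l hl (by rw [hm, hml])
        · rw [hm, hml] at hxl
          simp only [Pi.neg_apply, e, Pi.single_eq_same] at hxl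
          apply h2
          have : (2 : F) = 1 + 1 := by norm_num
          rw [this]
          nth_rewrite 1 [← hxl]
          ring
      obtain ⟨γ, hγ, hγe⟩ := hcoord l₁ hl₁ hl₁k
      obtain ⟨m, hm⟩ := hMx l₁
      have hval : ∀ l ∈ J, l ≠ k → l ≠ l₁ → l = m := by
        intro l hl hlk hl1
        by_contra hlm
        have h3 := congrFun hγe l
        rw [Pi.sub_apply] at h3
        have h4 : (x (e l₁)) l = 0 := by
          rcases hm with hm | hm <;> rw [hm] <;> simp [e, hlm]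
        have h5 : (e l₁ : ι → F) l = 0 := by simp [e, hl1]
        rw [h4, h5, sub_zero, Pi.smul_apply, smul_eq_mul] at h3
        exact mul_ne_zero hγ (hz l hl hlk) h3.symm
      exact hl₃₂ ((hval l₃ hl₃ hl₃k hl₃₁).trans (hval l₂ hl₂ hl₂k hl₂₁).symm)
    apply ortho_of_trace h2 hJ (huu i hi) (huu j hj) (hus i hi) (hus j hj)
    intro k hk
    rw [← hx]
    obtain ⟨m, hm⟩ := hMx k
    have hmk : k ≠ m := by
      rintro rfl
      rcases hm with hm | hm
      · exact hnofix k hk hm
      · exact hnoneg k hk hm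
    rcases hm with hm | hm <;> rw [hm] <;> simp [e, hmk]
  -- the equations `ε_i f_i + ε_j f_j = 1`
  have heq : ∀ i ∈ J, ∀ j ∈ J, i ≠ j → ε i * f i + ε j * f j = 1 := by
    intro i hi j hj hij
    have h1 : (e i - ε i • f) ⬝ᵥ (e j - ε j • f) = 0 := by
      rw [hc i hi, hc j hj, smul_dotProduct, dotProduct_smul, hortho i hi j hj hij]
      simp
    rw [sub_dotProduct, dotProduct_sub, dotProduct_sub, e_dot_e_ne hij, smul_dotProduct, smul_dotProduct,
      dotProduct_smul, dotProduct_smul, e_dot, dot_e, hf.1] at h1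
    simp only [smul_eq_mul] at h1
    have h3 := hε2 i hi
    have h4 := hε2 j hj
    linear_combination (-(ε i * ε j)) * h1 + (-ε j * f j + ε j * ε j) * h3 + (1 - ε i * f i) * h4
  refine ⟨hs, fun i hi => ?_⟩
  obtain ⟨j, hj, hji⟩ := exists_ne_mem hJ i
  obtain ⟨k, hk, hki, hkj⟩ := exists_ne2_mem hJ i j
  have e1 := heq i hi j hj (Ne.symm hji)
  have e2 := heq i hi k hk (Ne.symm hki)
  have e3 := heq j hj k hk (Ne.symm hkj)
  have e4 : 2 * (ε i * f i) = 1 := by linear_combination e1 + e2 - e3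
  rcases hε i hi with h | h
  · left; rw [h, one_mul] at e4; exact e4
  · right; rw [h] at e4; linear_combination -e4

end Cfsg.Agent.H92.FrD
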