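import Cfsg.Agent.H92.FrDc

/-!
# Orthogonal frames, four coordinates: descent and the light unipotent
-/

set_option autoImplicit false
set_option linter.unusedSectionVars false
set_option linter.unusedVariables false

namespace Cfsg.Agent.H92.FrD

open QuadraticMap Module Cfsg.Agent.Orth Cfsg.Agent.GeoMax.Ort Cfsg.Agent.SmallDim.Fr
open Matrix

variable {F : Type*} [Field F] {ι : Type} [Fintype ι] [DecidableEq ι]
variable {M : Subgroup (OGrp (Q0 F ι))}
variable {J : Finset ι} {b : ι}

/-- all sign patterns -/
theorem half_all (hM : Base M) {h : ι → F} (hC : CC M b h) (hh : Half J h) :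
    ∀ h' : ι → F, Half J h' → CC M b h' := by
  have h2 := hM.two
  have key : ∀ T : Finset ι, ∀ h' : ι → F, Half J h' → (∀ i, i ∉ T → h' i = h i) → CC M b h' := by
    intro T
    induction T using Finset.induction_on with
    | empty =>
      intro h' _ heq
      have : h' = h := funext fun i => heq i (Finset.notMem_empty i)
      rw [this]; exact hC
    | insert t T ht ih =>
      intro h' hh' heq
      by_cases hte : h' t = h t
      · apply ih h' hh'
        intro i hi
        by_cases hit : i = t
        · rw [hit]; exact hte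
        · exact heq i (by simp [hit, hi])
      · have htJ : t ∈ J := by
          by_contra hn
          apply hte
          rw [hh'.1 t hn, hh.1 t hn]
        have hneg : -h' t = h t := by
          have e1 := hh'.2 t htJ
          have e2 := hh.2 t htJ
          rcases e1 with e1 | e1 <;> rcases e2 with e2 | e2
          · exact absurd (mul_left_cancel₀ h2 (e1.trans e2.symm)) hte
          · apply mul_left_cancel₀ h2; rw [e2, mul_neg, e1]
          · apply mul_left_cancel₀ h2; rw [e2, mul_neg, e1, neg_neg]
          · exact absurd (mul_left_cancel₀ h2 (e1.trans e2.symm)) hte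
        set h'' : ι → F := (rf (e t) : OGrp (Q0 F ι)) h' with hdef
        have hap : ∀ k, h'' k = if k = t then -h' k else h' k := fun k => rf_e_ap t h' k
        have hH : Half J h'' := by
          refine ⟨fun i hi => ?_, fun i hi => ?_⟩
          · rw [hap]
            have : i ≠ t := fun h => hi (h ▸ htJ)
            rw [if_neg this]; exact hh'.1 i hi
          · rw [hap]
            split_ifs with hit
            · rcases hh'.2 i hi with e1 | e1
              · right; rw [mul_neg, e1]
              · left; rw [mul_neg, e1, neg_neg]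
            · exact hh'.2 i hi
        have hC'' : CC M b h'' := by
          apply ih h'' hH
          intro i hi
          rw [hap]
          split_ifs with hit
          · rw [hit]; exact hneg
          · exact heq i (by simp [hit, hi])
        have : h' = (rf (e t) : OGrp (Q0 F ι)) h'' := by rw [hdef, rf_rf]
        rw [this]
        exact CCrf (CCe hM t) hC''
  intro h' hh'
  exact key Finset.univ h' hh' (fun i hi => absurd (Finset.mem_univ i) hi)

/-- the half vectors on the four-subsets of `insert a J` -/
theorem half_move (hM : Base M) (hJ : J.card = 4) (hcard : 8 ≤ Fintype.card ι) {h : ι → F} (hC : CC M b h)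
    (hh : Half J h) {a : ι} (ha : a ∉ J) {T : Finset ι} (hT : T ⊆ insert a J) (hTc : T.card = 4) {h' : ι → F}
    (hh' : Half T h') : CC M b h' := by
  by_cases haT : a ∈ T
  · -- `T = insert a (J.erase j)`
    obtain ⟨j, hj, hjT⟩ : ∃ j ∈ J, j ∉ T := by
      by_contra hcon
      push Not at hcon
      have : insert a J ⊆ T := by
        intro x hx
        rcases Finset.mem_insert.1 hx with rfl | hx
        · exact haT
        · exact hcon x hx
      have := Finset.card_le_card this
      rw [Finset.card_insert_of_notMem ha, hJ, hTc] at this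
      omega
    have haj : a ≠ j := fun h => ha (h ▸ hj)
    -- two indices outside
    obtain ⟨c, c', hcc, hc, hc'⟩ : ∃ c c' : ι, c ≠ c' ∧ c ∉ insert a J ∧ c' ∉ insert a J := by
      have h1 : 1 < (Finset.univ \ insert a J).card := by
        rw [Finset.card_sdiff_of_subset (Finset.subset_univ _), Finset.card_univ,
          Finset.card_insert_of_notMem ha]; omega
      obtain ⟨a', ha', c, hc, hac⟩ := Finset.one_lt_card.1 h1
      exact ⟨a', c, hac, by simpa using ha', by simpa using hc⟩
    -- `T ⊆ insert a (J.erase j)`; equality by cardinality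
    have hTeq : T = insert a (J.erase j) := by
      apply Finset.eq_of_subset_of_card_le
      · intro x hx
        rcases Finset.mem_insert.1 (hT hx) with rfl | hx'
        · exact Finset.mem_insert_self _ _
        · exact Finset.mem_insert_of_mem (Finset.mem_erase.2 ⟨fun h => hjT (h ▸ hx), hx'⟩)
      · rw [Finset.card_insert_of_notMem (fun h => ha (Finset.mem_of_mem_erase h)),
          Finset.card_erase_of_mem hj, hJ, hTc]
    set h'' : ι → F := fun k => h' (Equiv.swap j a k) with hdef
    have hH : Half J h'' := by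
      refine ⟨fun i hi => ?_, fun i hi => ?_⟩
      · simp only [hdef]
        apply hh'.1
        by_cases hia : i = a
        · rw [hia, Equiv.swap_apply_right]; exact hjT
        · have hij : i ≠ j := fun h => hi (h ▸ hj)
          rw [Equiv.swap_apply_of_ne_of_ne hij hia]
          intro hiT
          rcases Finset.mem_insert.1 (hT hiT) with h | h
          · exact hia h
          · exact hi h
      · simp only [hdef]
        apply hh'.2
        by_cases hij : i = j
        · rw [hij, Equiv.swap_apply_left]; exact haT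
        · have hia : i ≠ a := fun h => ha (h ▸ hi)
          rw [Equiv.swap_apply_of_ne_of_ne hij hia, hTeq]
          exact Finset.mem_insert_of_mem (Finset.mem_erase.2 ⟨hij, hi⟩)
    have hC'' := half_all hM hC hh h'' hH
    have h1 : h' = fun k => h'' (Equiv.swap j a k) := by
      funext k; simp only [hdef, Equiv.swap_apply_self]
    rw [h1]
    refine CCswap hM hC'' (Ne.symm haj) hcc ?_ ?_
    · exact hH.1 c (fun h => hc (Finset.mem_insert_of_mem h))
    · exact hH.1 c' (fun h => hc' (Finset.mem_insert_of_mem h))
  · have hTJ : T = J := by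
      apply Finset.eq_of_subset_of_card_le
      · intro x hx
        rcases Finset.mem_insert.1 (hT hx) with rfl | hx'
        · exact absurd hx haT
        · exact hx'
      · rw [hJ, hTc]
    rw [hTJ] at hh'
    exact half_all hM hC hh h' hh'

/-- the descent -/
theorem descent (hM : Base M) (hJ : J.card = 4) (hcard : 8 ≤ Fintype.card ι) {h : ι → F} (hC : CC M b h)
    (hh : Half J h) {a : ι} (ha : a ∉ J) (k : ℕ) : ∀ U : ι → ℤ, (∀ i, i ∉ insert a J → U i = 0) →
      ∑ i ∈ insert a J, U i * U i = 4 ^ k → CC M b (fun i => (U i : F) / 2 ^ k) := by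
  have h2 := hM.two
  set I : Finset ι := insert a J with hI
  have hIc : I.card = 5 := by rw [hI, Finset.card_insert_of_notMem ha, hJ]
  induction k with
  | zero =>
    intro U hU hsum
    simp only [pow_zero, div_one] at hsum ⊢
    -- exactly one coordinate is nonzero
    have hex : ∃ i ∈ I, U i ≠ 0 := by
      by_contra hcon
      push Not at hcon
      rw [Finset.sum_eq_zero (fun i hi => by rw [hcon i hi, mul_zero])] at hsum
      exact zero_ne_one hsum
    obtain ⟨i, hi, hUi⟩ := hex
    have h1 : U i * U i + ∑ j ∈ I.erase i, U j * U j = 1 := by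
      rw [Finset.add_sum_erase I (fun j => U j * U j) hi]; exact hsum
    have h3 : 0 ≤ ∑ j ∈ I.erase i, U j * U j := Finset.sum_nonneg fun j _ => mul_self_nonneg _
    have h4 : 0 < U i * U i := mul_self_pos.2 hUi
    have h5 : ∑ j ∈ I.erase i, U j * U j = 0 := by omega
    have h6 : U i * U i = 1 := by omega
    have h7 : ∀ j, j ≠ i → U j = 0 := by
      intro j hj
      by_cases hjI : j ∈ I
      · have := (Finset.sum_eq_zero_iff_of_nonneg (fun j _ => mul_self_nonneg (U j))).1 h5 j
          (Finset.mem_erase.2 ⟨hj, hjI⟩)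
        exact mul_self_eq_zero.1 this
      · exact hU j hjI
    rcases mul_self_eq_one_iff.1 h6 with h8 | h8
    · have : (fun j => (U j : F)) = e i := by
        funext j
        by_cases hj : j = i
        · subst hj; rw [h8]; simp [e]
        · rw [h7 j hj]; simp [e, hj]
      rw [this]; exact CCe hM i
    · have : (fun j => (U j : F)) = -e i := by
        funext j
        by_cases hj : j = i
        · subst hj; rw [h8]; simp [e]
        · rw [h7 j hj]; simp [e, hj]
      rw [this]; exact CCneg (CCe hM i)
  | succ k ih =>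
    intro U hU hsum
    -- the odd coordinates
    set O : Finset ι := I.filter (fun i => U i % 2 = 1) with hO
    have hOI : O ⊆ I := Finset.filter_subset _ _
    -- the even case
    have heven : ∀ W : ι → ℤ, (∀ i, i ∉ I → W i = 0) → (∀ i ∈ I, W i % 2 = 0) →
        ∑ i ∈ I, W i * W i = 4 ^ (k + 1) → CC M b (fun i => (W i : F) / 2 ^ (k + 1)) := by
      intro W hW hWe hWs
      have hW2 : ∀ i, W i = 2 * (W i / 2) := by
        intro i
        by_cases hi : i ∈ I
        · have := hWe i hi; omega
        · rw [hW i hi]; rfl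
      have h1 : ∑ i ∈ I, (W i / 2) * (W i / 2) = 4 ^ k := by
        have h3 : ∑ i ∈ I, W i * W i = 4 * ∑ i ∈ I, (W i / 2) * (W i / 2) := by
          rw [Finset.mul_sum]
          apply Finset.sum_congr rfl
          intro i _
          nth_rewrite 1 [hW2 i]
          nth_rewrite 2 [hW2 i]
          ring
        rw [h3, pow_succ, mul_comm] at hWs
        omega
      have h3 := ih (fun i => W i / 2) (fun i hi => by simp only [hW i hi]; rfl) h1
      have h4 : (fun i => (W i : F) / 2 ^ (k + 1)) = fun i => ((W i / 2 : ℤ) : F) / 2 ^ k := by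
        funext i
        conv_lhs => rw [hW2 i]
        push_cast
        rw [pow_succ]
        field_simp
      rw [h4]; exact h3
    -- the number of odd coordinates is divisible by four
    have hmod : (O.card : ℤ) % 4 = 0 := by
      have h1 : ∑ i ∈ I, U i * U i = ∑ i ∈ O, U i * U i + ∑ i ∈ I \ O, U i * U i := by
        rw [add_comm, Finset.sum_sdiff hOI]
      have h3 : (4 : ℤ) ∣ ∑ i ∈ O, (U i * U i - 1) := by
        apply Finset.dvd_sum
        intro i hi
        have hodd : U i % 2 = 1 := (Finset.mem_filter.1 hi).2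
        obtain ⟨m, hm⟩ : ∃ m, U i = 2 * m + 1 := ⟨U i / 2, by omega⟩
        exact ⟨m * m + m, by rw [hm]; ring⟩
      have h4 : (4 : ℤ) ∣ ∑ i ∈ I \ O, U i * U i := by
        apply Finset.dvd_sum
        intro i hi
        rw [Finset.mem_sdiff] at hi
        have hev : U i % 2 = 0 := by
          by_contra hne
          apply hi.2
          exact Finset.mem_filter.2 ⟨hi.1, by omega⟩
        obtain ⟨m, hm⟩ : ∃ m, U i = 2 * m := ⟨U i / 2, by omega⟩
        exact ⟨m * m, by rw [hm]; ring⟩
      rw [Finset.sum_sub_distrib, Finset.sum_const] at h3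
      rw [hsum, pow_succ] at h1
      obtain ⟨x, hx⟩ := h3
      obtain ⟨y, hy⟩ := h4
      simp only [nsmul_eq_mul, mul_one] at hx
      omega
    have hOle : O.card ≤ 5 := hIc ▸ Finset.card_le_card hOI
    rcases (by omega : O.card = 0 ∨ O.card = 4) with hO0 | hO4
    · apply heven U hU _ hsum
      intro i hi
      by_contra hne
      have : i ∈ O := Finset.mem_filter.2 ⟨hi, by omega⟩
      rw [Finset.card_eq_zero] at hO0
      rw [hO0] at this
      exact absurd this (Finset.notMem_empty i)
    · -- the signs
      obtain ⟨o, ho⟩ : ∃ o, o ∈ O := Finset.card_pos.1 (by omega)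
      set s : ι → ℤ := fun i => if i = o then (if U i % 4 = 1 then -1 else 1)
        else (if U i % 4 = 1 then 1 else -1) with hs
      have hs1 : ∀ i, s i = 1 ∨ s i = -1 := by
        intro i; simp only [hs]; split_ifs <;> simp
      have hss : ∀ i, s i * s i = 1 := by
        intro i; rcases hs1 i with h | h <;> rw [h] <;> ring
      have hoddU : ∀ i ∈ O, U i % 2 = 1 := fun i hi => (Finset.mem_filter.1 hi).2
      have hmod1 : ∀ i ∈ O, i ≠ o → (4 : ℤ) ∣ s i * U i - 1 := by
        intro i hi hio
        have := hoddU i hi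
        simp only [hs, if_neg hio]
        split_ifs <;> omega
      have hmodo : (4 : ℤ) ∣ s o * U o + 1 := by
        have := hoddU o ho
        simp only [hs, if_true]
        split_ifs <;> omega
      have hS : (4 : ℤ) ∣ ∑ i ∈ O, s i * U i - 2 := by
        have h1 : ∑ i ∈ O, s i * U i = s o * U o + ∑ i ∈ O.erase o, s i * U i := by
          rw [Finset.add_sum_erase O (fun j => s j * U j) ho]
        have h3 : (4 : ℤ) ∣ ∑ i ∈ O.erase o, (s i * U i - 1) :=
          Finset.dvd_sum fun i hi => hmod1 i (Finset.mem_of_mem_erase hi) (Finset.ne_of_mem_erase hi)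
        rw [Finset.sum_sub_distrib, Finset.sum_const, Finset.card_erase_of_mem ho, hO4] at h3
        obtain ⟨x, hx⟩ := h3
        obtain ⟨y, hy⟩ := hmodo
        simp only [nsmul_eq_mul, mul_one] at hx
        refine ⟨x + y, ?_⟩
        push_cast at hx
        linarith
      obtain ⟨q, hq⟩ := hS
      set S' : ℤ := 2 * q + 1 with hS'
      have hSS : ∑ i ∈ O, s i * U i = 2 * S' := by rw [hS']; linarith
      set W : ι → ℤ := fun i => if i ∈ O then U i - s i * S' else U i with hWdef
      have hWs : ∑ i ∈ I, W i * W i = 4 ^ (k + 1) := by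
        have h1 : ∑ i ∈ I, W i * W i = ∑ i ∈ O, W i * W i + ∑ i ∈ I \ O, W i * W i := by
          rw [add_comm, Finset.sum_sdiff hOI]
        have h3 : ∑ i ∈ I, U i * U i = ∑ i ∈ O, U i * U i + ∑ i ∈ I \ O, U i * U i := by
          rw [add_comm, Finset.sum_sdiff hOI]
        have h4 : ∑ i ∈ I \ O, W i * W i = ∑ i ∈ I \ O, U i * U i := by
          apply Finset.sum_congr rfl
          intro i hi
          simp only [hWdef, if_neg (Finset.mem_sdiff.1 hi).2]
        have h5 : ∑ i ∈ O, W i * W i = ∑ i ∈ O, (U i * U i - 2 * S' * (s i * U i) + S' * S') := by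
          apply Finset.sum_congr rfl
          intro i hi
          simp only [hWdef, if_pos hi]
          have := hss i
          linear_combination (S' * S') * this
        rw [Finset.sum_add_distrib, Finset.sum_sub_distrib, ← Finset.mul_sum, hSS, Finset.sum_const, hO4] at h5
        rw [h1, h4, h5, ← hsum, h3]
        simp only [nsmul_eq_mul]
        push_cast
        ring
      have hWC := heven W
        (by
          intro i hi
          simp only [hWdef, if_neg (fun h => hi (hOI h))]
          exact hU i hi)
        (by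
          intro i hi
          simp only [hWdef]
          split_ifs with hiO
          · have e1 := hoddU i hiO
            rcases hs1 i with e2 | e2 <;> rw [e2] <;> omega
          · by_contra hne
            exact hiO (Finset.mem_filter.2 ⟨hi, by omega⟩))
        hWs
      -- the half vector
      set h' : ι → F := fun i => if i ∈ O then (s i : F) / 2 else 0 with hh'def
      have hH' : Half O h' := by
        refine ⟨fun i hi => by simp only [hh'def, if_neg hi], fun i hi => ?_⟩
        simp only [hh'def, if_pos hi]
        have : 2 * ((s i : F) / 2) = (s i : F) := by field_simp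
        rw [this]
        rcases hs1 i with e2 | e2 <;> rw [e2] <;> simp
      have hCh' := half_move hM hJ hcard hC hh ha (hI ▸ hOI) hO4 hH'
      have hfin := CCrf hCh' hWC
      have heqf : (rf h' : OGrp (Q0 F ι)) (fun i => (W i : F) / 2 ^ (k + 1)) =
          fun i => (U i : F) / 2 ^ (k + 1) := by
        rw [rf_ap1 hCh'.1]
        have hdot : (fun i => (W i : F) / 2 ^ (k + 1)) ⬝ᵥ h' = -(S' : F) / 2 ^ (k + 1) := by
          have h1 : (fun i => (W i : F) / 2 ^ (k + 1)) ⬝ᵥ h' =
              ∑ i ∈ O, (((s i * U i : ℤ) : F) - (S' : F)) / (2 * 2 ^ (k + 1)) := by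
            rw [dotProduct]
            rw [← Finset.sum_subset (Finset.subset_univ O)]
            · apply Finset.sum_congr rfl
              intro i hi
              simp only [hh'def, if_pos hi, hWdef]
              have hsF : (s i : F) * (s i : F) = 1 := by exact_mod_cast congrArg (Int.cast : ℤ → F) (hss i)
              push_cast
              field_simp
              linear_combination (-(S' : F)) * hsF
            · intro i _ hi
              simp only [hh'def, if_neg hi, mul_zero]
          rw [h1, ← Finset.sum_div, Finset.sum_sub_distrib, ← Int.cast_sum, hSS, Finset.sum_const, hO4]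
          simp only [nsmul_eq_mul]
          push_cast
          field_simp
          ring
        rw [hdot]
        funext i
        simp only [Pi.sub_apply, Pi.smul_apply, smul_eq_mul, hh'def, hWdef]
        split_ifs with hiO
        · push_cast
          field_simp
          ring
        · ring
      rw [heqf] at hfin
      exact hfin

/-- Lemma D: a half vector gives a light unipotent element -/
theorem light_of_half [Fintype F] (hp : (Fintype.card F).Prime) (hM : Base M) (hJ : J.card = 4)
    (hcard : 8 ≤ Fintype.card ι) {h : ι → F} (hC : CC M b h) (hh : Half J h) : Light M := by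
  have h2 := hM.two
  set p := Fintype.card F with hpdef
  have : Fact p.Prime := ⟨hp⟩
  have hchar : CharP F p := by
    obtain ⟨q, hq⟩ := CharP.exists F
    have hqp : q.Prime := (CharP.char_is_prime_or_zero F q).resolve_right (by
      rintro rfl
      have := CharP.charP_to_charZero F
      exact not_finite F)
    obtain ⟨n, hn⟩ := FiniteField.card F q
    have : q ∣ p := by rw [hpdef, hn.2]; exact dvd_pow_self q n.ne_zero
    rwa [(Nat.prime_dvd_prime_iff_eq hqp hp).1 this] at hq
  -- `a` outside `J`
  obtain ⟨a, ha⟩ : ∃ a, a ∉ J := by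
    by_contra hcon
    push Not at hcon
    have : (Finset.univ : Finset ι) ⊆ J := fun x _ => hcon x
    have := Finset.card_le_card this
    rw [Finset.card_univ] at this
    omega
  have hp2 : p ≠ 2 := by
    intro h
    apply h2
    have := CharP.cast_eq_zero F p
    rw [h] at this
    exact_mod_cast this
  -- `J = {j1, j2, j3, j4}`
  obtain ⟨j₁, hj₁⟩ : ∃ j, j ∈ J := Finset.card_pos.1 (by omega)
  obtain ⟨j₂, hj₂, h21⟩ := exists_ne_mem hJ j₁
  obtain ⟨j₃, hj₃, h31, h32⟩ := exists_ne2_mem hJ j₁ j₂
  obtain ⟨j₄, hj₄, h41, h42, h43⟩ := exists_ne3_mem hJ j₁ j₂ j₃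
  have hJeq : J = {j₁, j₂, j₃, j₄} := by
    symm
    apply Finset.eq_of_subset_of_card_le
    · intro r hr
      simp only [Finset.mem_insert, Finset.mem_singleton] at hr
      rcases hr with rfl | rfl | rfl | rfl <;> assumption
    · rw [hJ, Finset.card_insert_of_notMem (by simp [Ne.symm h21, Ne.symm h31, Ne.symm h41]),
        Finset.card_insert_of_notMem (by simp [Ne.symm h32, Ne.symm h42]),
        Finset.card_insert_of_notMem (by simp [Ne.symm h43]), Finset.card_singleton]
  -- four squares
  have hpk : p < 2 ^ p := Nat.lt_two_pow_self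
  obtain ⟨x₁, x₂, x₃, x₄, hx⟩ := Nat.sum_four_squares (p * (2 ^ (p + 1) - p))
  set U : ι → ℤ := fun i => if i = j₁ then (x₁ : ℤ) else if i = j₂ then (x₂ : ℤ) else if i = j₃ then (x₃ : ℤ)
    else if i = j₄ then (x₄ : ℤ) else if i = a then 2 ^ p - (p : ℤ) else 0 with hU
  have ha1 : a ≠ j₁ := fun h => ha (h ▸ hj₁)
  have ha2 : a ≠ j₂ := fun h => ha (h ▸ hj₂)
  have ha3 : a ≠ j₃ := fun h => ha (h ▸ hj₃)
  have ha4 : a ≠ j₄ := fun h => ha (h ▸ hj₄)
  have hUa : U a = 2 ^ p - (p : ℤ) := by simp only [hU, if_neg ha1, if_neg ha2, if_neg ha3, if_neg ha4, if_true]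
  have hU1 : U j₁ = x₁ := by simp only [hU, if_true]
  have hU2 : U j₂ = x₂ := by simp only [hU, if_neg h21, if_true]
  have hU3 : U j₃ = x₃ := by simp only [hU, if_neg h31, if_neg h32, if_true]
  have hU4 : U j₄ = x₄ := by simp only [hU, if_neg h41, if_neg h42, if_neg h43, if_true]
  have hU0 : ∀ i, i ∉ insert a J → U i = 0 := by
    intro i hi
    rw [hJeq] at hi
    simp only [Finset.mem_insert, Finset.mem_singleton, not_or] at hi
    simp only [hU, if_neg hi.2.1, if_neg hi.2.2.1, if_neg hi.2.2.2.1, if_neg hi.2.2.2.2, if_neg hi.1]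
  have hsum : ∑ i ∈ insert a J, U i * U i = 4 ^ p := by
    rw [Finset.sum_insert ha, hJeq, Finset.sum_insert (by simp [Ne.symm h21, Ne.symm h31, Ne.symm h41]),
      Finset.sum_insert (by simp [Ne.symm h32, Ne.symm h42]), Finset.sum_insert (by simp [Ne.symm h43]),
      Finset.sum_singleton, hUa, hU1, hU2, hU3, hU4]
    have hxZ : (x₁ : ℤ) ^ 2 + (x₂ : ℤ) ^ 2 + (x₃ : ℤ) ^ 2 + (x₄ : ℤ) ^ 2 = (p : ℤ) * (2 ^ (p + 1) - (p : ℤ)) := by
      have h3 : (2 ^ (p + 1) - p : ℕ) = (2 ^ (p + 1) - (p : ℤ) : ℤ) := by
        rw [Nat.cast_sub (by rw [pow_succ]; omega)]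
        push_cast; ring
      rw [← h3]
      exact_mod_cast hx
    have h4 : (4 : ℤ) ^ p = 2 ^ p * 2 ^ p := by
      rw [← mul_pow]; norm_num
    rw [h4]
    rw [pow_succ] at hxZ
    linear_combination hxZ
  have hu := descent hM hJ hcard hC hh ha p U hU0 hsum
  set u : ι → F := fun i => (U i : F) / 2 ^ p with hudef
  have h2p : (2 : F) ^ p ≠ 0 := pow_ne_zero _ h2
  have hua : u a = 1 := by
    simp only [hudef, hUa]
    push_cast
    rw [CharP.cast_eq_zero F p, sub_zero]
    exact div_self h2p
  set d : ι → F := u - e a with hd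
  have hda : d a = 0 := by simp [hd, hua, e]
  have hdsupp : ∀ i, i ∉ J → d i = 0 := by
    intro i hi
    by_cases hia : i = a
    · rw [hia]; exact hda
    · have : U i = 0 := hU0 i (by simp [hia, hi])
      simp [hd, hudef, this, e, hia]
  refine ⟨a, J, d, ha, by omega, hdsupp, ?_, ?_, ?_⟩
  · -- `d ≠ 0`
    intro hd0
    have hzero : ∀ j ∈ J, (p : ℤ) ∣ U j := by
      intro j hj
      have h3 := congrFun hd0 j
      have hja : j ≠ a := fun h => ha (h ▸ hj)
      simp only [hd, hudef, Pi.sub_apply, e, Pi.single_eq_of_ne hja, sub_zero, Pi.zero_apply] at h3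
      have h4 : ((U j : ℤ) : F) = 0 := (div_eq_zero_iff.1 h3).resolve_right h2p
      exact (CharP.intCast_eq_zero_iff F p _).1 h4
    have d1 := hzero j₁ hj₁
    have d2 := hzero j₂ hj₂
    have d3 := hzero j₃ hj₃
    have d4 := hzero j₄ hj₄
    rw [hU1, Int.natCast_dvd_natCast] at d1
    rw [hU2, Int.natCast_dvd_natCast] at d2
    rw [hU3, Int.natCast_dvd_natCast] at d3
    rw [hU4, Int.natCast_dvd_natCast] at d4
    have h5 : p * p ∣ p * (2 ^ (p + 1) - p) := by
      rw [← hx]
      have hsq : ∀ x, p ∣ x → p * p ∣ x ^ 2 := fun x hx => by rw [_root_.sq]; exact mul_dvd_mul hx hx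
      exact dvd_add (dvd_add (dvd_add (hsq _ d1) (hsq _ d2)) (hsq _ d3)) (hsq _ d4)
    have h6 : p ∣ 2 ^ (p + 1) - p := Nat.dvd_of_mul_dvd_mul_left hp.pos h5
    have h7 : p ∣ 2 ^ (p + 1) := by
      have h8 : 2 ^ (p + 1) = (2 ^ (p + 1) - p) + p := by
        rw [Nat.sub_add_cancel]; rw [pow_succ]; omega
      rw [h8]; exact dvd_add h6 dvd_rfl
    have h8 := (Nat.prime_dvd_prime_iff_eq hp Nat.prime_two).1 (hp.dvd_of_dvd_pow h7)
    exact hp2 h8
  · -- `d` is singular
    have h3 : u = e a + d := by rw [hd]; abel
    have h4 := hu.1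
    rw [h3, add_dotProduct, dotProduct_add, dotProduct_add, e_dot_e_self, e_dot, dot_e, hda] at h4
    linear_combination h4
  · have h3 : e a + d = u := by rw [hd]; abel
    rw [h3]
    exact CCmul (CCe hM a) hu

/-- **Piece (D)** of the frame theorem -/
theorem light_of_four [Fintype F] (hp : (Fintype.card F).Prime) (hn : 10 ≤ Fintype.card ι)
    {M : Subgroup (OGrp (Q0 F ι))} (hM : Base M) (J : Finset ι) (hJ : J.card = 4)
    (hst : ∀ j ∈ J, ∀ g ∈ M, Fix J g → g (e j) = e j → Mon g) (hex : ∃ g ∈ M, Fix J g ∧ ¬ Mon g) :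
    Light M := by
  obtain ⟨b, hb⟩ : ∃ b, b ∉ J := by
    by_contra hcon
    push Not at hcon
    have : (Finset.univ : Finset ι) ⊆ J := fun x _ => hcon x
    have := Finset.card_le_card this
    rw [Finset.card_univ] at this
    omega
  obtain ⟨g, hgM, hgJ, hgn⟩ := hex
  have hst' : Stab M J := hst
  have hg : g ∈ KK M J b hb := ⟨hgJ, Or.inl hgM⟩
  have hf : ∀ j ∈ J, CC M b (g (e j)) := fun j _ => CCK hM hg (CCe hM j)
  have hs : ∀ j ∈ J, ∀ i, i ∉ J → (g (e j)) i = 0 := fun j hj => supp_of_K hM hg (supp_e hj)
  have hne : ∀ j ∈ J, ∀ k, g (e j) ≠ e k ∧ g (e j) ≠ -e k := by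
    intro j hj k
    by_cases hk : k ∈ J
    · exact ⟨fun h => hgn (K_trans hM hJ hst' hj hk hg (Or.inl h)),
        fun h => hgn (K_trans hM hJ hst' hj hk hg (Or.inr h))⟩
    · have h0 := hs j hj k hk
      refine ⟨fun h => ?_, fun h => ?_⟩ <;> rw [h] at h0 <;> simp [e] at h0
  have hhalf : ∃ h : ι → F, CC M b h ∧ Half J h := by
    by_cases hall : ∃ j ∈ J, ∀ i ∈ J, (g (e j)) i ≠ 0
    · obtain ⟨j, hj, hfull⟩ := hall
      exact ⟨g (e j), hf j hj, half_of_full hb hM hJ hst' hg hj hfull⟩
    · push Not at hall
      apply half_of_t2 hM hJ (by omega) hg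
      intro j hj
      obtain ⟨i, hi, hi0⟩ := hall j hj
      exact t2_of_zero hb hM hJ hst' (hf j hj) (hs j hj) (hne j hj) hi hi0
  obtain ⟨h, hC, hh⟩ := hhalf
  exact light_of_half hp hM hJ (by omega) hC hh

end Cfsg.Agent.H92.FrD
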