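import Cfsg.Agent.SmallDim.Fr.Sup
import Cfsg.Agent.H2.FrX

/-!
# Orthogonal frames: transport to `GL`, final assembly
-/

set_option autoImplicit false
set_option linter.unusedSectionVars false
set_option linter.unusedVariables false

namespace Cfsg.Agent.H92.FrT

open QuadraticMap Module Cfsg.Agent.Orth Cfsg.Agent.GeoMax.Ort Cfsg.Agent.SmallDim.Fr
open Matrix

section std

variable {F : Type*} [Field F] {ι : Type} [Fintype ι] [DecidableEq ι]

theorem rt_self {v : ι → F} (h : Rt v) : v ⬝ᵥ v = 2 := by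
  obtain ⟨i, j, hij, h⟩ := h
  have h1 : (e i : ι → F) ⬝ᵥ e j = 0 := e_dot_e_ne hij
  have h2 : (e j : ι → F) ⬝ᵥ e i = 0 := e_dot_e_ne (Ne.symm hij)
  have h3 : (e i : ι → F) ⬝ᵥ e i = 1 := e_dot_e_self i
  have h4 : (e j : ι → F) ⬝ᵥ e j = 1 := e_dot_e_self j
  rcases h with h | h | h | h <;> subst h <;>
    simp only [add_dotProduct, dotProduct_add, sub_dotProduct, dotProduct_sub, neg_dotProduct, dotProduct_neg,
      h1, h2, h3, h4] <;> ring

theorem mon_rf_rt (h2 : (2 : F) ≠ 0) {v : ι → F} (h : Rt v) : Mon (rf v : OGrp (Q0 F ι)) := by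
  have hv := rt_self h
  have key : ∀ x : ι → F, (rf v : OGrp (Q0 F ι)) x = x - (x ⬝ᵥ v) • v := by
    intro x
    rw [rf_ap (by rw [hv]; exact h2), hv, ← mul_assoc, inv_mul_cancel₀ h2, one_mul]
  obtain ⟨i, j, hij, h⟩ := h
  intro k
  rw [key]
  by_cases hki : k = i
  · subst hki
    refine ⟨j, ?_⟩
    have h3 : (e k : ι → F) ⬝ᵥ e k = 1 := e_dot_e_self k
    have h1 : (e k : ι → F) ⬝ᵥ e j = 0 := e_dot_e_ne hij
    rcases h with h | h | h | h <;> subst h <;>
      simp only [dotProduct_add, dotProduct_sub, dotProduct_neg, h3, h1]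
    · right; module
    · left; module
    · left; module
    · right; module
  · by_cases hkj : k = j
    · subst hkj
      refine ⟨i, ?_⟩
      have h3 : (e k : ι → F) ⬝ᵥ e k = 1 := e_dot_e_self k
      have h1 : (e k : ι → F) ⬝ᵥ e i = 0 := e_dot_e_ne hki
      rcases h with h | h | h | h <;> subst h <;>
        simp only [dotProduct_add, dotProduct_sub, dotProduct_neg, h3, h1]
      · right; module
      · left; module
      · left; module
      · right; module
    · refine ⟨k, Or.inl ?_⟩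
      have h1 : (e k : ι → F) ⬝ᵥ e i = 0 := e_dot_e_ne hki
      have h3 : (e k : ι → F) ⬝ᵥ e j = 0 := e_dot_e_ne hkj
      rcases h with h | h | h | h <;> subst h <;>
        simp only [dotProduct_add, dotProduct_sub, dotProduct_neg, h3, h1] <;> simp

theorem rf_pair_mem [Fintype F] (h2 : (2 : F) ≠ 0) {u v : ι → F} (hu : u ⬝ᵥ u ≠ 0) (h : u ⬝ᵥ u = v ⬝ᵥ v) :
    (rf u * rf v : OGrp (Q0 F ι)) ∈ commutator (OGrp (Q0 F ι)) := by
  have hu' : Q0 F ι u ≠ 0 := by rwa [Q0_apply]
  have hv' : Q0 F ι v ≠ 0 := by rw [Q0_apply, ← h]; exact hu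
  rw [rf_eq hu', rf_eq hv']
  exact refl_pair_mem (nondeg h2) hu' hv' (by rw [Q0_apply, Q0_apply, h])

theorem dt_comm {g : OGrp (Q0 F ι)} (hg : g ∈ commutator (OGrp (Q0 F ι))) : dt g = 1 := by
  let D : OGrp (Q0 F ι) →* F := ⟨⟨fun g => dt g, dt_one⟩, dt_mul⟩
  have h1 : ∀ a b : OGrp (Q0 F ι), dt (a * b * a⁻¹ * b⁻¹) = 1 := by
    intro a b
    have ha := dt_mul a a⁻¹
    have hb := dt_mul b b⁻¹
    rw [mul_inv_cancel, dt_one] at ha hb
    rw [dt_mul, dt_mul, dt_mul]
    linear_combination (-(dt b * dt b⁻¹)) * ha - hb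
  rw [commutator_def, Subgroup.commutator_def] at hg
  induction hg using Subgroup.closure_induction with
  | mem x hx =>
    obtain ⟨a, -, b, -, rfl⟩ := hx
    exact h1 a b
  | one => exact dt_one
  | mul x y _ _ hx hy => rw [dt_mul, hx, hy, one_mul]
  | inv x _ hx => exact dt_inv hx

/-- the commutator subgroup contains a non-monomial element -/
theorem exists_not_mon [Fintype F] (h2 : (2 : F) ≠ 0) (hn : 7 ≤ Fintype.card ι) :
    ∃ g ∈ commutator (OGrp (Q0 F ι)), ¬ Mon g := by
  have hV : finrank F (ι → F) = Fintype.card ι := finrank_fintype_fun_eq_card F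
  have hQ := nondeg (ι := ι) h2
  have hne : Nonempty ι := Fintype.card_pos_iff.1 (by omega)
  obtain ⟨i⟩ := hne
  -- a singular vector orthogonal to `e i`
  have hP := finrank_perp hQ (Submodule.span F {(e i : ι → F)})
  rw [finrank_span_singleton (e_ne_zero i), hV] at hP
  obtain ⟨x, hx, hx0, hxq⟩ := exists_sing_mem (Q0 F ι) (perp (Q0 F ι) (Submodule.span F {(e i : ι → F)}))
    (by omega)
  have hxi : x i = 0 := by
    have h3 : polar (Q0 F ι) (e i) x = 0 := hx (e i) (Submodule.mem_span_singleton_self _)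
    rw [polar_Q0, e_dot] at h3
    exact (mul_eq_zero.1 h3).resolve_left h2
  rw [Q0_apply] at hxq
  have hq : Q0 F ι (e i) = Q0 F ι (e i + x) := by
    rw [Q0_apply, Q0_apply, add_dotProduct, dotProduct_add, dotProduct_add, hxq, e_dot, dotProduct_comm x, e_dot,
      hxi]
    ring
  have hv' : (e i + x : ι → F) ≠ 0 := by
    intro h0
    have := congrFun h0 i
    simp [e, hxi] at this
  obtain ⟨g, hg, hgv⟩ := exists_mem_move hQ (by omega) (M := commutator (OGrp (Q0 F ι)))
    (fun a b ha hab => ⟨ha, hab, eich_mem_commutator hQ (by omega) ha hab⟩) (e_ne_zero i) hv' hq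
  refine ⟨g, hg, fun hm => ?_⟩
  obtain ⟨j, hj⟩ := hm i
  have hgv' : g (e i) = e i + x := hgv
  rw [hgv'] at hj
  have h1 : j = i := by
    by_contra hji
    rcases hj with hj | hj
    · have := congrFun hj i
      simp [e, hxi, Ne.symm hji] at this
    · have := congrFun hj i
      simp [e, hxi, Ne.symm hji] at this
  subst h1
  rcases hj with hj | hj
  · exact hx0 (by simpa using hj)
  · have := congrFun hj j
    simp only [e, Pi.add_apply, Pi.single_eq_same, hxi, add_zero, Pi.neg_apply] at this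
    apply h2
    linear_combination this

/-- maximality in the standard model -/
theorem max_std [Fintype F]
    (H : ∀ (M : Subgroup (OGrp (Q0 F ι))), Base M → (∀ u : ι → F, u ⬝ᵥ u ≠ 0 → rf u ∉ M) →
      (∀ g ∈ M, Mon g) ∨ commutator (OGrp (Q0 F ι)) ≤ M)
    (h2 : (2 : F) ≠ 0) (hn : 7 ≤ Fintype.card ι) :
    Cfsg.Geo.IsMaximalIn (commutator (OGrp (Q0 F ι))) (MonG h2 ⊓ commutator (OGrp (Q0 F ι))) := by
  constructor
  · refine lt_of_le_of_ne inf_le_right ?_
    intro heq
    obtain ⟨g, hg, hgm⟩ := exists_not_mon (ι := ι) h2 hn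
    rw [← heq] at hg
    exact hgm hg.1
  · intro M hHM hMI
    have hbase : Base M := by
      refine ⟨h2, fun i j => hHM ⟨?_, ?_⟩, fun u v hu hv => hHM ⟨?_, ?_⟩⟩
      · exact (Mon_rf_e i).mul (Mon_rf_e j)
      · exact rf_pair_mem h2 (by rw [e_dot_e_self]; exact one_ne_zero) (by rw [e_dot_e_self, e_dot_e_self])
      · exact (mon_rf_rt h2 hu).mul (mon_rf_rt h2 hv)
      · exact rf_pair_mem h2 (by rw [rt_self hu]; exact h2) (by rw [rt_self hu, rt_self hv])
    have hnr : ∀ u : ι → F, u ⬝ᵥ u ≠ 0 → rf u ∉ M := by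
      intro u hu hmem
      have h1 := dt_comm (hMI hmem)
      rw [dt_rf hu] at h1
      apply h2
      linear_combination (-1 : F) * h1
    rcases H M hbase hnr with h | h
    · left
      exact le_antisymm (fun g hg => ⟨h g hg, hMI hg⟩) hHM
    · right
      exact le_antisymm hMI h

end std

section transport

variable {F : Type*} [Field F] {V V' : Type*} [AddCommGroup V] [Module F V] [AddCommGroup V'] [Module F V']

/-- similar forms have isomorphic isometry groups -/
noncomputable def simCongr {Q : QuadraticForm F V} {Q' : QuadraticForm F V'} (L : V ≃ₗ[F] V') {c : F} (hc : c ≠ 0)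
    (hL : ∀ v, Q' (L v) = c * Q v) : OGrp Q ≃* OGrp Q' where
  toFun g := ⟨(L.symm.trans (g : V ≃ₗ[F] V)).trans L, fun v => by
    have h1 := OGrp_q g (L.symm v)
    rw [LinearEquiv.trans_apply, LinearEquiv.trans_apply, hL, h1, ← hL, L.apply_symm_apply]⟩
  invFun g := ⟨(L.trans (g : V' ≃ₗ[F] V')).trans L.symm, fun v => by
    have h1 := OGrp_q g (L v)
    rw [LinearEquiv.trans_apply, LinearEquiv.trans_apply]
    apply mul_left_cancel₀ hc
    rw [← hL, L.apply_symm_apply, h1, hL]⟩
  left_inv g := by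
    apply OGrp_ext
    intro x
    change L.symm (L ((g : V ≃ₗ[F] V) (L.symm (L x)))) = _
    rw [L.symm_apply_apply, L.symm_apply_apply]
  right_inv g := by
    apply OGrp_ext
    intro x
    change L (L.symm ((g : V' ≃ₗ[F] V') (L (L.symm x)))) = _
    rw [L.apply_symm_apply, L.apply_symm_apply]
  map_mul' g h := by
    apply OGrp_ext
    intro x
    change L ((g : V ≃ₗ[F] V) ((h : V ≃ₗ[F] V) (L.symm x)))
      = L ((g : V ≃ₗ[F] V) (L.symm (L ((h : V ≃ₗ[F] V) (L.symm x)))))
    rw [L.symm_apply_apply]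

theorem simCongr_apply {Q : QuadraticForm F V} {Q' : QuadraticForm F V'} (L : V ≃ₗ[F] V') {c : F} (hc : c ≠ 0)
    (hL : ∀ v, Q' (L v) = c * Q v) (g : OGrp Q) (x : V') :
    ((simCongr L hc hL g : OGrp Q') : V' ≃ₗ[F] V') x = L ((g : V ≃ₗ[F] V) (L.symm x)) := rfl

theorem simCongr_symm_apply {Q : QuadraticForm F V} {Q' : QuadraticForm F V'} (L : V ≃ₗ[F] V') {c : F} (hc : c ≠ 0)
    (hL : ∀ v, Q' (L v) = c * Q v) (g : OGrp Q') (x : V) :
    (((simCongr L hc hL).symm g : OGrp Q) : V ≃ₗ[F] V) x = L.symm ((g : V' ≃ₗ[F] V') (L x)) := rfl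

theorem isMaximalIn_congr {G G' : Type*} [Group G] [Group G'] (f : G ≃* G') {H : Subgroup G}
    (h : Cfsg.Geo.IsMaximalIn (commutator G) (H ⊓ commutator G)) :
    Cfsg.Geo.IsMaximalIn (commutator G') (H.map f.toMonoidHom ⊓ commutator G') := by
  have h1 := isMaximalIn_map_inj f.toMonoidHom f.injective h
  have h2 : (commutator G).map f.toMonoidHom = commutator G' := by
    rw [commutator_def, commutator_def, Subgroup.map_commutator]
    congr 1 <;> exact Subgroup.map_top_of_surjective _ f.surjective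
  rwa [Subgroup.map_inf _ _ _ f.injective, h2] at h1

end transport

section frame

open Cfsg.Geo

variable {F : Type*} [Field F] [Fintype F] {ι : Type} [Fintype ι] [DecidableEq ι]

/-- vectors spanning the lines of an orthogonal frame -/
theorem exists_frame (Q : (ι → F) → F) (hQ : IsNondegenerateQuadraticForm Q) (h2 : (2 : F) ≠ 0)
    {t : ℕ} (D : Fin t → Submodule F (ι → F)) (hD : IsOrthogonalMDecomposition Q 1 D) :
    ∃ (b : Basis (Fin t) F (ι → F)) (c : F), c ≠ 0 ∧ (∀ i, D i = Submodule.span F {b i}) ∧ (∀ i, Q (b i) = c) ∧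
      ∀ i j, i ≠ j → polar Q (b i) (b j) = 0 := by
  classical
  have ht := hD.decomp.decomp.two_le
  let i₀ : Fin t := ⟨0, by omega⟩
  have hfr := hD.decomp.decomp.finrank_eq
  obtain ⟨u, hu0, hu⟩ := finrank_eq_one_iff'.1 (hfr i₀)
  -- isometries
  have hiso := fun i => hD.isometric i₀ i
  choose σ hσ using hiso
  let v : Fin t → (ι → F) := fun i => ((σ i u : D i) : ι → F)
  have hvmem : ∀ i, v i ∈ D i := fun i => (σ i u).2
  have hv0 : ∀ i, v i ≠ 0 := by
    intro i h
    have h1 : σ i u = 0 := Subtype.ext h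
    exact hu0 ((σ i).map_eq_zero_iff.1 h1)
  have hspan : ∀ i, D i = Submodule.span F {v i} := by
    intro i
    symm
    apply Submodule.eq_of_le_of_finrank_eq
    · rw [Submodule.span_le]
      rintro _ rfl
      exact hvmem i
    · rw [hfr i, finrank_span_singleton (hv0 i)]
  have hind : LinearIndependent F v := by
    refine hD.decomp.decomp.indep.linearIndependent D hvmem hv0
  have htop : ⊤ ≤ Submodule.span F (Set.range v) := by
    rw [← hD.decomp.decomp.iSup_eq_top, iSup_le_iff]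
    intro i
    rw [hspan i]
    apply Submodule.span_mono
    rintro _ rfl
    exact ⟨i, rfl⟩
  let b : Basis (Fin t) F (ι → F) := Basis.mk hind htop
  have hb : ∀ i, b i = v i := fun i => Basis.mk_apply hind htop i
  have hQv : ∀ i, Q (v i) = Q (u : ι → F) := fun i => hσ i u
  refine ⟨b, Q (u : ι → F), ?_, ?_, ?_, ?_⟩
  · intro h0
    have hu0' : ((u : D i₀) : ι → F) ≠ 0 := fun h => hu0 (Subtype.ext h)
    obtain ⟨-, w, hw, hne⟩ := hD.decomp.nondegenerate i₀ (u : ι → F) u.2 hu0'
    apply hne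
    obtain ⟨a, ha⟩ := hu ⟨w, hw⟩
    have ha' : w = a • (u : ι → F) := by
      have := congrArg (Subtype.val) ha
      simpa using this.symm
    rw [ha', hQ.polar_bilinear.smul_right]
    have : QuadraticMap.polar Q (u : ι → F) (u : ι → F) = 2 * Q (u : ι → F) := pself (Q := toQF hQ) (u : ι → F)
    rw [this, h0]
    ring
  · intro i; rw [hb]; exact hspan i
  · intro i; rw [hb]; exact hQv i
  · intro i j hij
    rw [hb, hb]
    exact hD.decomp.orthogonal i j hij _ (hvmem i) _ (hvmem j)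

theorem frame_form {Q : QuadraticForm F (ι → F)} (h2 : (2 : F) ≠ 0) {t : ℕ} (b : Basis (Fin t) F (ι → F)) {c : F}
    (hc : ∀ i, Q (b i) = c) (ho : ∀ i j, i ≠ j → polar Q (b i) (b j) = 0) (x : Fin t → F) :
    Q (b.equivFun.symm x) = c * Q0 F (Fin t) x := by
  have h1 : polar Q (b.equivFun.symm x) (b.equivFun.symm x) = 2 * (c * Q0 F (Fin t) x) := by
    rw [b.equivFun_symm_apply, ← pbil, map_sum, Q0_apply, dotProduct, Finset.mul_sum, Finset.mul_sum]
    refine Finset.sum_congr rfl fun i _ => ?_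
    rw [map_smul, map_sum, LinearMap.sum_apply, Finset.sum_eq_single i]
    · rw [map_smul, LinearMap.smul_apply, pbil, pself, hc, smul_eq_mul, smul_eq_mul]; ring
    · intro j _ hj
      rw [map_smul, LinearMap.smul_apply, pbil, ho j i hj, smul_zero]
    · intro h; exact absurd (Finset.mem_univ i) h
  rw [pself] at h1
  exact mul_left_cancel₀ h2 h1

/-- **maximality of frame stabilisers**, from the dichotomy in the standard model, dimension at least seven -/
theorem frame_geo_of7
    (H : ∀ M : Subgroup (OGrp (Q0 F (Fin (Fintype.card ι)))), Base M →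
      (∀ u : Fin (Fintype.card ι) → F, u ⬝ᵥ u ≠ 0 → rf u ∉ M) →
      (∀ g ∈ M, Mon g) ∨ commutator (OGrp (Q0 F (Fin (Fintype.card ι)))) ≤ M)
    (Q : (ι → F) → F) (hQ : IsNondegenerateQuadraticForm Q) (hodd : Odd (Fintype.card F))
    (hcard : 7 ≤ Fintype.card ι) {t : ℕ} (D : Fin t → Submodule F (ι → F))
    (hD : IsOrthogonalMDecomposition Q 1 D) :
    IsMaximalIn (omegaGL Q) (decompositionStabilizer D ⊓ omegaGL Q) := by
  classical
  have h2 : (2 : F) ≠ 0 := GeoMax.Ort.two_ne_zero_of_odd hodd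
  obtain ⟨b, c, hc, hDb, hcb, hob⟩ := exists_frame Q hQ h2 D hD
  have htι : t = Fintype.card ι := by
    have h1 := finrank_eq_card_basis b
    rw [finrank_fintype_fun_eq_card, Fintype.card_fin] at h1
    exact h1.symm
  subst htι
  let L : (Fin (Fintype.card ι) → F) ≃ₗ[F] (ι → F) := b.equivFun.symm
  have hLe : ∀ i, L (e i) = b i := by
    intro i
    rw [LinearEquiv.symm_apply_eq]
    funext j
    rw [b.equivFun_self]
    by_cases hij : i = j
    · subst hij; simp [e]
    · rw [if_neg hij]; simp [e, Ne.symm hij]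
  have hL : ∀ x, toQF hQ (L x) = c * Q0 F (Fin (Fintype.card ι)) x := frame_form (Q := toQF hQ) h2 b hcb hob
  let Ψ : OGrp (Q0 F (Fin (Fintype.card ι))) ≃* OGrp (toQF hQ) := simCongr L hc hL
  have hstd := max_std (F := F) (ι := Fin (Fintype.card ι)) H h2 (by rw [Fintype.card_fin]; exact hcard)
  have h3 := isMaximalIn_congr Ψ hstd
  refine isMaximalIn_omegaGL (toQF hQ) (H' := (MonG h2).map Ψ.toMonoidHom) ?_ h3
  intro g
  have hmv : ∀ x, Matrix.toLin' (emGL (toQF hQ) g : Matrix ι ι F) x = (g : (ι → F) ≃ₗ[F] (ι → F)) x := by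
    intro x
    rw [Matrix.toLin'_apply, emGL_mulVec]
  have h4 : g ∈ (MonG h2).map Ψ.toMonoidHom ↔ Mon (Ψ.symm g) := by
    constructor
    · rintro ⟨x, hx, rfl⟩
      have : Ψ.symm (Ψ.toMonoidHom x) = x := Ψ.symm_apply_apply x
      rw [this]; exact hx
    · intro h
      exact ⟨Ψ.symm g, h, Ψ.apply_symm_apply g⟩
  rw [h4]
  have h5 : ∀ i, (Ψ.symm g) (e i) = L.symm ((g : (ι → F) ≃ₗ[F] (ι → F)) (b i)) := by
    intro i
    rw [← hLe]
    rfl
  constructor
  · intro hm
    choose s hs using hm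
    have hinj : Function.Injective s := fun i i' hii => Mon.inj h2 (hs i) (by rw [hii]; exact hs i')
    refine ⟨Equiv.ofBijective s (Finite.injective_iff_bijective.1 hinj), fun i => ?_⟩
    rw [Equiv.ofBijective_apply, hDb, hDb, Submodule.map_span, Set.image_singleton, hmv]
    have h6 : (g : (ι → F) ≃ₗ[F] (ι → F)) (b i) = b (s i) ∨ (g : (ι → F) ≃ₗ[F] (ι → F)) (b i) = -b (s i) := by
      rcases hs i with h | h
      · left
        rw [h5] at h
        rw [← L.apply_symm_apply ((g : (ι → F) ≃ₗ[F] (ι → F)) (b i)), h, hLe]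
      · right
        rw [h5] at h
        rw [← L.apply_symm_apply ((g : (ι → F) ≃ₗ[F] (ι → F)) (b i)), h, map_neg, hLe]
    rcases h6 with h | h
    · rw [h]
    · rw [h, ← Set.neg_singleton, Submodule.span_neg]
  · rintro ⟨τ, hτ⟩ i
    refine ⟨τ i, ?_⟩
    have h6 : (g : (ι → F) ≃ₗ[F] (ι → F)) (b i) ∈ Submodule.span F {b (τ i)} := by
      rw [← hDb, ← hτ i, ← hmv]
      refine Submodule.mem_map_of_mem ?_
      rw [hDb]; exact Submodule.mem_span_singleton_self _
    obtain ⟨a, ha⟩ := Submodule.mem_span_singleton.1 h6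
    have h7 : a * a = 1 := by
      have h8 : toQF hQ (a • b (τ i)) = toQF hQ (b i) := by rw [ha, OGrp_q]
      rw [qsmul] at h8
      change a * a * Q (b (τ i)) = Q (b i) at h8
      rw [hcb, hcb] at h8
      exact mul_right_cancel₀ hc (by rw [h8, one_mul])
    rw [h5, ← ha, map_smul]
    have h9 : L.symm (b (τ i)) = e (τ i) := by rw [← hLe, L.symm_apply_apply]
    rw [h9]
    rcases mul_self_eq_one_iff.1 h7 with h | h
    · left; rw [h, one_smul]
    · right; rw [h, neg_smul, one_smul]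

/-- **maximality of frame stabilisers**, from the dichotomy in the standard model -/
theorem frame_geo_of
    (H : ∀ (t : ℕ) (M : Subgroup (OGrp (Q0 F (Fin t)))), 10 ≤ t → Base M →
      (∀ u : Fin t → F, u ⬝ᵥ u ≠ 0 → rf u ∉ M) →
      (∀ g ∈ M, Mon g) ∨ commutator (OGrp (Q0 F (Fin t))) ≤ M)
    (Q : (ι → F) → F) (hQ : IsNondegenerateQuadraticForm Q) (hodd : Odd (Fintype.card F))
    (hcard : 10 ≤ Fintype.card ι) {t : ℕ} (D : Fin t → Submodule F (ι → F))
    (hD : IsOrthogonalMDecomposition Q 1 D) :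
    IsMaximalIn (omegaGL Q) (decompositionStabilizer D ⊓ omegaGL Q) :=
  frame_geo_of7 (fun M hM hr => H _ M hcard hM hr) Q hQ hodd (by omega) D hD

end frame

end Cfsg.Agent.H92.FrT
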