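import Cfsg.Prelude.Def_AxialAlgebras

set_option autoImplicit false

namespace Cfsg.Agent.H92.Maj

open Cfsg.Axial

variable {V : Type*} [AddCommGroup V] [Module ℝ V]

theorem mem_eigen {mul : V →ₗ[ℝ] V →ₗ[ℝ] V} {a : V} {c : ℝ} {v : V} :
    v ∈ eigen mul a c ↔ mul a v = c • v := Module.End.mem_eigenspace_iff

theorem eigenSum_singleton (mul : V →ₗ[ℝ] V →ₗ[ℝ] V) (a : V) (c : ℝ) :
    eigenSum mul a {c} = eigen mul a c := by
  unfold eigenSum; simp

theorem eigenSum_pair (mul : V →ₗ[ℝ] V →ₗ[ℝ] V) (a : V) (c d : ℝ) :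
    eigenSum mul a {c, d} = eigen mul a c ⊔ eigen mul a d := by
  unfold eigenSum; rw [iSup_pair]

theorem eigenSum_insert (mul : V →ₗ[ℝ] V →ₗ[ℝ] V) (a : V) (c : ℝ) (S : Set ℝ) :
    eigenSum mul a (insert c S) = eigen mul a c ⊔ eigenSum mul a S := by
  unfold eigenSum; rw [iSup_insert]

theorem spec1 : (1 : ℝ) ∈ majoranaSpectrum := by unfold majoranaSpectrum; simp
theorem spec0 : (0 : ℝ) ∈ majoranaSpectrum := by unfold majoranaSpectrum; simp
theorem specq : (1 / 4 : ℝ) ∈ majoranaSpectrum := by unfold majoranaSpectrum; simp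
theorem spect : (1 / 32 : ℝ) ∈ majoranaSpectrum := by unfold majoranaSpectrum; simp

theorem law00 : monsterLaw (1 / 4 : ℝ) (1 / 32) 0 0 = {0} := by
  unfold monsterLaw; norm_num
theorem law0q : monsterLaw (1 / 4 : ℝ) (1 / 32) 0 (1 / 4) = {1 / 4} := by
  unfold monsterLaw; norm_num
theorem law0t : monsterLaw (1 / 4 : ℝ) (1 / 32) 0 (1 / 32) = {1 / 32} := by
  unfold monsterLaw; norm_num
theorem lawqq : monsterLaw (1 / 4 : ℝ) (1 / 32) (1 / 4) (1 / 4) = {1, 0} := by
  unfold monsterLaw; norm_num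
theorem lawqt : monsterLaw (1 / 4 : ℝ) (1 / 32) (1 / 4) (1 / 32) = {1 / 32} := by
  unfold monsterLaw; norm_num
theorem lawtt : monsterLaw (1 / 4 : ℝ) (1 / 32) (1 / 32) (1 / 32) = {1, 0, 1 / 4} := by
  unfold monsterLaw; norm_num

section Pair

variable {mul : V →ₗ[ℝ] V →ₗ[ℝ] V} {B : LinearMap.BilinForm ℝ V} {μ : V ≃ₗ[ℝ] V} {a : V}

theorem idem (h : IsMajoranaPair mul B μ a) : mul a a = a := h.2.2.1.1.2.1

theorem ne_zero (h : IsMajoranaPair mul B μ a) : a ≠ 0 := h.2.2.1.1.1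

theorem map_mul (h : IsMajoranaPair mul B μ a) (u v : V) : μ (mul u v) = mul (μ u) (μ v) := h.1 u v

theorem map_form (h : IsMajoranaPair mul B μ a) (u v : V) : B (μ u) (μ v) = B u v := h.2.1 u v

theorem fix0 (h : IsMajoranaPair mul B μ a) {v : V} (hv : mul a v = 0) : μ v = v := by
  have := h.2.2.2.1 v
  rw [eigenSum_insert, eigenSum_pair] at this
  exact this (Submodule.mem_sup_right (Submodule.mem_sup_left (mem_eigen.mpr (by simpa using hv))))

theorem fix1 (h : IsMajoranaPair mul B μ a) {v : V} (hv : mul a v = v) : μ v = v := by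
  have := h.2.2.2.1 v
  rw [eigenSum_insert, eigenSum_pair] at this
  exact this (Submodule.mem_sup_left (mem_eigen.mpr (by simpa using hv)))

theorem fixq (h : IsMajoranaPair mul B μ a) {v : V} (hv : mul a v = (1 / 4 : ℝ) • v) : μ v = v := by
  have := h.2.2.2.1 v
  rw [eigenSum_insert, eigenSum_pair] at this
  exact this (Submodule.mem_sup_right (Submodule.mem_sup_right (mem_eigen.mpr hv)))

theorem negt (h : IsMajoranaPair mul B μ a) {v : V} (hv : mul a v = (1 / 32 : ℝ) • v) : μ v = -v :=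
  h.2.2.2.2 v (mem_eigen.mpr hv)

theorem fix_self (h : IsMajoranaPair mul B μ a) : μ a = a := fix1 h (idem h)

theorem fus00 (h : IsMajoranaPair mul B μ a) {u v : V} (hu : mul a u = 0) (hv : mul a v = 0) :
    mul a (mul u v) = 0 := by
  have := h.2.2.1.1.2.2.2 0 spec0 0 spec0 u (mem_eigen.mpr (by simpa using hu)) v
    (mem_eigen.mpr (by simpa using hv))
  rw [law00, eigenSum_singleton, mem_eigen] at this
  simpa using this

theorem fus0q (h : IsMajoranaPair mul B μ a) {u v : V} (hu : mul a u = 0)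
    (hv : mul a v = (1 / 4 : ℝ) • v) :
    mul a (mul u v) = (1 / 4 : ℝ) • mul u v := by
  have := h.2.2.1.1.2.2.2 0 spec0 (1 / 4) specq u (mem_eigen.mpr (by simpa using hu)) v
    (mem_eigen.mpr hv)
  rw [law0q, eigenSum_singleton, mem_eigen] at this
  exact this

theorem fus0t (h : IsMajoranaPair mul B μ a) {u v : V} (hu : mul a u = 0)
    (hv : mul a v = (1 / 32 : ℝ) • v) :
    mul a (mul u v) = (1 / 32 : ℝ) • mul u v := by
  have := h.2.2.1.1.2.2.2 0 spec0 (1 / 32) spect u (mem_eigen.mpr (by simpa using hu)) v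
    (mem_eigen.mpr hv)
  rw [law0t, eigenSum_singleton, mem_eigen] at this
  exact this

theorem fusqt (h : IsMajoranaPair mul B μ a) {u v : V} (hu : mul a u = (1 / 4 : ℝ) • u)
    (hv : mul a v = (1 / 32 : ℝ) • v) :
    mul a (mul u v) = (1 / 32 : ℝ) • mul u v := by
  have := h.2.2.1.1.2.2.2 (1 / 4) specq (1 / 32) spect u (mem_eigen.mpr hu) v
    (mem_eigen.mpr hv)
  rw [lawqt, eigenSum_singleton, mem_eigen] at this
  exact this

/-- the `1`-eigenspace is the line of `a`. -/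
theorem eig1 (h : IsMajoranaPair mul B μ a) {v : V} (hv : mul a v = v) : ∃ c : ℝ, v = c • a := by
  have h1 : v ∈ eigen mul a 1 := mem_eigen.mpr (by simpa using hv)
  rw [h.2.2.1.2, Submodule.mem_span_singleton] at h1
  obtain ⟨c, hc⟩ := h1
  exact ⟨c, hc.symm⟩

theorem fusqq (h : IsMajoranaPair mul B μ a) {u v : V} (hu : mul a u = (1 / 4 : ℝ) • u)
    (hv : mul a v = (1 / 4 : ℝ) • v) :
    ∃ (c : ℝ) (w : V), mul a w = 0 ∧ mul u v = c • a + w := by
  have := h.2.2.1.1.2.2.2 (1 / 4) specq (1 / 4) specq u (mem_eigen.mpr hu) v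
    (mem_eigen.mpr hv)
  rw [lawqq, eigenSum_pair, Submodule.mem_sup] at this
  obtain ⟨y, hy, z, hz, hyz⟩ := this
  obtain ⟨c, hc⟩ := eig1 h (show mul a y = y by simpa using mem_eigen.mp hy)
  exact ⟨c, z, by simpa using mem_eigen.mp hz, by rw [← hyz, hc]⟩

theorem fustt (h : IsMajoranaPair mul B μ a) {u v : V} (hu : mul a u = (1 / 32 : ℝ) • u)
    (hv : mul a v = (1 / 32 : ℝ) • v) :
    ∃ (c : ℝ) (w z : V), mul a w = 0 ∧ mul a z = (1 / 4 : ℝ) • z ∧ mul u v = c • a + w + z := by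
  have := h.2.2.1.1.2.2.2 (1 / 32) spect (1 / 32) spect u (mem_eigen.mpr hu) v
    (mem_eigen.mpr hv)
  rw [lawtt, eigenSum_insert, eigenSum_pair, Submodule.mem_sup] at this
  obtain ⟨y, hy, z, hz, hyz⟩ := this
  obtain ⟨c, hc⟩ := eig1 h (show mul a y = y by simpa using mem_eigen.mp hy)
  obtain ⟨w, hw, x, hx, hwx⟩ := Submodule.mem_sup.mp hz
  exact ⟨c, w, x, by simpa using mem_eigen.mp hw, mem_eigen.mp hx, by
    rw [← hyz, ← hwx, hc, add_assoc]⟩

/-- eigenvector decomposition of an arbitrary vector. -/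
theorem decomp (h : IsMajoranaPair mul B μ a) (v : V) :
    ∃ (c : ℝ) (x y z : V), mul a x = 0 ∧ mul a y = (1 / 4 : ℝ) • y ∧
      mul a z = (1 / 32 : ℝ) • z ∧ v = c • a + x + y + z := by
  have hv : v ∈ eigenSum mul a majoranaSpectrum := by
    rw [h.2.2.1.1.2.2.1]; trivial
  unfold majoranaSpectrum at hv
  rw [eigenSum_insert, eigenSum_insert, eigenSum_pair, Submodule.mem_sup] at hv
  obtain ⟨p, hp, q, hq, hpq⟩ := hv
  obtain ⟨c, hc⟩ := eig1 h (show mul a p = p by simpa using mem_eigen.mp hp)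
  obtain ⟨x, hx, r, hr, hxr⟩ := Submodule.mem_sup.mp hq
  obtain ⟨y, hy, z, hz, hyz⟩ := Submodule.mem_sup.mp hr
  refine ⟨c, x, y, z, by simpa using mem_eigen.mp hx, mem_eigen.mp hy, mem_eigen.mp hz, ?_⟩
  rw [← hpq, ← hxr, ← hyz, hc]; abel

/-- `μ` is an involution. -/
theorem invol (h : IsMajoranaPair mul B μ a) (v : V) : μ (μ v) = v := by
  obtain ⟨c, x, y, z, hx, hy, hz, hv⟩ := decomp h v
  rw [hv]
  simp only [map_add, map_smul, fix_self h, fix0 h hx, fixq h hy, negt h hz, map_neg, neg_neg]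

end Pair

section Ambient

variable {mul : V →ₗ[ℝ] V →ₗ[ℝ] V} {B : LinearMap.BilinForm ℝ V}

theorem comm (hV : IsMajoranaAmbient mul B) (u v : V) : mul u v = mul v u := hV.1 u v

theorem form_symm (hV : IsMajoranaAmbient mul B) (u v : V) : B u v = B v u := hV.2.1 u v

theorem form_pos (hV : IsMajoranaAmbient mul B) {u : V} (hu : u ≠ 0) : 0 < B u u := hV.2.2.1 u hu

theorem form_assoc (hV : IsMajoranaAmbient mul B) (u v w : V) : B u (mul v w) = B (mul u v) w :=
  hV.2.2.2.1 u v w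

theorem norton (hV : IsMajoranaAmbient mul B) (u v : V) :
    B (mul u v) (mul u v) ≤ B (mul u u) (mul v v) := hV.2.2.2.2 u v

theorem form_nonneg (hV : IsMajoranaAmbient mul B) (u : V) : 0 ≤ B u u := by
  by_cases hu : u = 0
  · simp [hu]
  · exact (form_pos hV hu).le

theorem eq_zero_of_form (hV : IsMajoranaAmbient mul B) {u : V} (h : B u u = 0) : u = 0 := by
  by_contra hu
  exact absurd h (form_pos hV hu).ne'

/-- eigenvectors with different eigenvalues are orthogonal. -/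
theorem orth (hV : IsMajoranaAmbient mul B) {a u v : V} {c d : ℝ} (hcd : c ≠ d)
    (hu : mul a u = c • u) (hv : mul a v = d • v) : B u v = 0 := by
  have h1 : B (mul a u) v = B u (mul a v) := by
    rw [comm hV a u, form_assoc hV]
  rw [hu, hv] at h1
  simp only [map_smul, LinearMap.smul_apply, smul_eq_mul] at h1
  have h2 : (c - d) * B u v = 0 := by linear_combination h1
  rcases mul_eq_zero.mp h2 with h | h
  · exact absurd (sub_eq_zero.mp h) hcd
  · exact h

/-- transport of a Majorana pair by an automorphism. -/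
theorem pair_conj {μ : V ≃ₗ[ℝ] V} {a : V} (h : IsMajoranaPair mul B μ a) (g : V ≃ₗ[ℝ] V)
    (hg : ∀ u v, g (mul u v) = mul (g u) (g v)) (hgB : ∀ u v, B (g u) (g v) = B u v) :
    IsMajoranaPair mul B (g * μ * g⁻¹) (g a) := by
  have hgs : ∀ v, g (g⁻¹ v) = v := fun v => by
    show (g * g⁻¹) v = v
    simp
  have hgs' : ∀ v, g⁻¹ (g v) = v := fun v => by
    show (g⁻¹ * g) v = v
    simp
  have hg' : ∀ u v, g⁻¹ (mul u v) = mul (g⁻¹ u) (g⁻¹ v) := by
    intro u v
    apply g.injective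
    rw [hg, hgs, hgs, hgs]
  have hgB' : ∀ u v, B (g⁻¹ u) (g⁻¹ v) = B u v := by
    intro u v
    rw [← hgB, hgs, hgs]
  have heig : ∀ (c : ℝ) (v : V), v ∈ eigen mul (g a) c ↔ g⁻¹ v ∈ eigen mul a c := by
    intro c v
    rw [mem_eigen, mem_eigen]
    constructor
    · intro hv
      apply g.injective
      rw [hg, hgs, hv, map_smul, hgs]
    · intro hv
      have := congrArg g hv
      rw [hg, hgs, map_smul, hgs] at this
      exact this
  have heigmap : ∀ c : ℝ, eigen mul (g a) c = (eigen mul a c).map (g : V →ₗ[ℝ] V) := by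
    intro c
    ext v
    rw [heig, Submodule.mem_map]
    constructor
    · intro hv
      exact ⟨_, hv, hgs v⟩
    · rintro ⟨w, hw, rfl⟩
      simpa [hgs'] using hw
  have hsum : ∀ S : Set ℝ, eigenSum mul (g a) S = (eigenSum mul a S).map (g : V →ₗ[ℝ] V) := by
    intro S
    unfold eigenSum
    rw [Submodule.map_iSup]
    congr 1
    ext c : 1
    rw [Submodule.map_iSup]
    congr 1
    ext1 _
    exact heigmap c
  have hsum' : ∀ (S : Set ℝ) (v : V), v ∈ eigenSum mul (g a) S ↔ g⁻¹ v ∈ eigenSum mul a S := by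
    intro S v
    rw [hsum, Submodule.mem_map]
    constructor
    · rintro ⟨w, hw, rfl⟩
      simpa [hgs'] using hw
    · intro hv
      exact ⟨_, hv, hgs v⟩
  refine ⟨?_, ?_, ⟨⟨?_, ?_, ?_, ?_⟩, ?_⟩, ?_, ?_⟩
  · intro u v
    show g (μ (g⁻¹ (mul u v))) = mul (g (μ (g⁻¹ u))) (g (μ (g⁻¹ v)))
    rw [hg', h.1, hg]
  · intro u v
    show B (g (μ (g⁻¹ u))) (g (μ (g⁻¹ v))) = B u v
    rw [hgB, h.2.1, hgB']
  · intro h0
    apply ne_zero h
    apply g.injective
    rw [h0, map_zero]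
  · rw [← hg, idem h]
  · rw [hsum, h.2.2.1.1.2.2.1, Submodule.map_top]
    exact LinearEquiv.range g
  · intro c hc d hd u hu v hv
    rw [hsum', hg']
    exact h.2.2.1.1.2.2.2 c hc d hd _ ((heig c u).mp hu) _ ((heig d v).mp hv)
  · rw [heigmap, h.2.2.1.2, Submodule.map_span]
    simp
  · intro v hv
    show g (μ (g⁻¹ v)) = v
    have := h.2.2.2.1 _ ((hsum' _ _).mp hv)
    have this' : μ (g⁻¹ v) = g⁻¹ v := this
    rw [this', hgs]
  · intro v hv
    show g (μ (g⁻¹ v)) = -v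
    have := h.2.2.2.2 _ ((heig _ _).mp hv)
    have this' : μ (g⁻¹ v) = -(g⁻¹ v) := this
    rw [this', map_neg, hgs]

end Ambient

end Cfsg.Agent.H92.Maj
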