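import Cfsg.Agent.H75.RtCA
import Cfsg.Agent.H76.RtK1
import Cfsg.Agent.H76.RtK3
import Cfsg.Agent.H64.RtKC
import Cfsg.Agent.C2Ab.RtHAb
import Cfsg.Agent.C2Ab.RtCD
import Cfsg.Agent.H93.RtE6
import Cfsg.Agent.H34.RtC3

/-!
# Ree type groups: the pieces of the team under common names
-/

set_option autoImplicit false

namespace Cfsg.Agent.H92.Rt

open Cfsg Cfsg.Agent
open scoped ComplexConjugate

theorem exists_F {G : Type*} [Group G] [Fintype G] {t : G} {K : Subgroup G} [Fintype K] (t1 : t ≠ 1) (t2 : t * t = 1)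
    (tK : t ∉ K) (cent : ∀ g : G, g * t = t * g ↔ ∃ y : K, g = (y : G) ∨ g = t * (y : G))
    (φ : K → ℂ) (hcl : ∀ g y : K, φ (g * y * g⁻¹) = φ y) (hsup : ∀ y : K, ¬ Odd (orderOf y) → φ y = 0) :
    ∃ F : G → ℂ, IsClassFunction G F ∧ (∀ y : K, Odd (orderOf y) → F (t * (y : G)) = 4 * φ y) ∧
      (∀ g : G, F g ≠ 0 → ∃ y : K, Odd (orderOf y) ∧ IsConj g (t * (y : G))) ∧
      (∀ g : G, Odd (orderOf g) → F g = 0) ∧
      ∀ ψ : G → ℂ, IsClassFunction G ψ →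
        classInner F ψ * (Nat.card K : ℂ) = 2 * ∑ y : K, φ y * conj (ψ (t * (y : G))) :=
  H75.RtCA.exists_F t1 t2 tK cent φ hcl hsup

theorem norm_lt {G : Type*} [Group G] [Fintype G] {t : G} {K : Subgroup G} [Fintype K] (t1 : t ≠ 1) (t2 : t * t = 1)
    (tK : t ∉ K) (cent : ∀ g : G, g * t = t * g ↔ ∃ y : K, g = (y : G) ∨ g = t * (y : G))
    (χ : IrrCharacter G) (f : K → ℂ) (hf : ∀ y : K, Odd (orderOf y) → f y = (χ : G → ℂ) (t * (y : G)))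
    (hf' : ∀ y : K, ¬ Odd (orderOf y) → f y = 0) :
    ∑ y : K, ‖f y‖ ^ 2 < 2 * (Nat.card K : ℝ) :=
  H75.RtCA.norm_lt t1 t2 tK cent χ f hf hf'

theorem exists_nat_parts {G : Type*} [Group G] [Fintype G] {χ : G → ℂ} (hχ : IsCharacter G χ) {t : G} (t2 : t * t = 1)
    {H : Type*} [Group H] [Fintype H] (f : H →* G) (hf : ∀ h : H, t * f h = f h * t) (ψ : H →* ℂ) :
    ∃ a b : ℕ, ∑ h : H, χ (f h) * ψ h⁻¹ = ((a : ℂ) + b) * (Nat.card H : ℂ) ∧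
      ∑ h : H, χ (t * f h) * ψ h⁻¹ = ((a : ℂ) - b) * (Nat.card H : ℂ) :=
  C2Ab.RtCD.exists_nat_parts hχ t2 f hf ψ

theorem exists_phi {K : Type*} [Group K] [Finite K] {q m : ℕ} {U A : Subgroup K} {k s r : K} (D : KD q m U A k s r)
    (θ : A →* ℂ) : ∃ φ : K → ℂ, IsPhi q U A θ φ := H76.Rt.exists_phi D θ

theorem phi_phi {K : Type*} [Group K] [Fintype K] {q m : ℕ} {U A : Subgroup K} {k s r : K} (D : KD q m U A k s r)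
    {θ θ' : A →* ℂ} (h1 : θ ≠ 1) (h1' : θ' ≠ 1) {φ φ' : K → ℂ} (hφ : IsPhi q U A θ φ) (hφ' : IsPhi q U A θ' φ')
    (hne : θ ≠ θ') (hne' : ∃ a : A, θ a ≠ θ' a⁻¹) : ∑ y : K, φ y * φ' y = 0 :=
  H76.Rt.phi_phi D h1 h1' hφ hφ' hne hne'

theorem phi_same {K : Type*} [Group K] [Fintype K] {q m : ℕ} {U A : Subgroup K} {k s r : K} (D : KD q m U A k s r)
    {θ θ' : A →* ℂ} (h1 : θ ≠ 1) {φ φ' : K → ℂ} (hφ : IsPhi q U A θ φ) (hφ' : IsPhi q U A θ' φ')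
    (h : θ' = θ ∨ ∀ a : A, θ' a = θ a⁻¹) :
    4 * ∑ y : K, φ y * φ' y = (q : ℂ) * ((q : ℂ) ^ 2 - 1) :=
  H76.Rt.phi_same D h1 hφ hφ' h

theorem phi_self {K : Type*} [Group K] [Fintype K] {q m : ℕ} {U A : Subgroup K} {k s r : K} (D : KD q m U A k s r)
    {θ : A →* ℂ} (h1 : θ ≠ 1) {φ : K → ℂ} (hφ : IsPhi q U A θ φ) :
    4 * ∑ y : K, φ y * φ y = (q : ℂ) * ((q : ℂ) ^ 2 - 1) := phi_same D h1 hφ hφ (Or.inl rfl)

theorem c_int {G : Type*} [Group G] [Fintype G] {t : G} {K : Subgroup G} [Fintype K] {q m : ℕ} {U A : Subgroup K}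
    [Fintype A] {k s r : K} (D : RD t K q m U A k s r) {χ : G → ℂ} (hχ : IsCharacter G χ) {θ : A →* ℂ} (h1 : θ ≠ 1)
    {φ : K → ℂ} (hφ : IsPhi q U A θ φ) :
    ∃ z w : ℤ, 4 * ∑ y : K, χ (t * (y : G)) * φ y = (z : ℂ) * ((q : ℂ) * ((q : ℂ) ^ 2 - 1)) ∧
      ∑ a : A, χ ((a : K) : G) * θ a⁻¹ = ((z : ℂ) + 2 * w) * (m : ℂ) :=
  H64.Rt.c_int D hχ h1 hφ

theorem h_torus {K : Type*} [Group K] [Fintype K] {q m : ℕ} {U A : Subgroup K} {k s r : K} (D : KD q m U A k s r)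
    (h : K → ℂ) (hcl : ∀ g y : K, h (g * y * g⁻¹) = h y) (hsup : ∀ y : K, ¬ Odd (orderOf y) → h y = 0)
    (n1 s' : ℤ) (h1 : h 1 = n1) (hU : ∀ x ∈ U, x ≠ 1 → h x = s') (hn : n1 + (q - 1) * s' = 0)
    (hphi : ∀ (θ : A →* ℂ) (φ : K → ℂ), θ ≠ 1 → IsPhi q U A θ φ → ∑ y : K, h y * φ y = 0)
    (hnorm : 4 * ∑ y : K, ‖h y‖ ^ 2 < (q : ℝ) * ((q : ℝ) ^ 2 - 1)) : s' = 0 :=
  C2Ab.RtHA.h_torus_of D (exists_phi D) h hcl hsup n1 s' h1 hU hn hphi hnorm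

theorem final {G : Type*} [Group G] [Fintype G] {t : G} {K : Subgroup G} {q m : ℕ} {U A : Subgroup K}
    {k s r : K} (D : RD t K q m U A k s r) (χ : Fin 4 → IrrCharacter G) (ε : ℤ) (hε : ε = 1 ∨ ε = -1)
    (σ : Fin 4 → ℤ) (h0 : σ 0 = 3 * ε) (h1 : σ 1 = -ε)
    (hodd : ∀ g : G, Odd (orderOf g) → ∀ i j, (χ i : G → ℂ) g = (χ j : G → ℂ) g)
    (ht : ∀ j, (χ j : G → ℂ) t = ((q : ℂ) - 1) * σ j)
    (htx : ∀ j, ∀ x ∈ U, x ≠ 1 → (χ j : G → ℂ) (t * (x : G)) = -(σ j : ℂ)) : False :=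
  H93.RtE6.final_of_c3 D (fun x hx hx1 => H34.Rt.c3 D x hx hx1) χ ε hε σ h0 h1 hodd ht htx

end Cfsg.Agent.H92.Rt
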