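import Cfsg.Agent.H92.RtC4c
import Cfsg.Agent.H42.RtHB

/-!
# Ree type groups: case 1 is impossible
-/

set_option autoImplicit false

namespace Cfsg.Agent.H92.Rt

open Cfsg Cfsg.Agent Cfsg.Agent.CharBase Finset
open scoped ComplexConjugate

section

variable {K : Type*} [Group K] [Fintype K] {q m : ℕ} {U A : Subgroup K} {k s r : K}

theorem oddB (D : KD q m U A k s r) (b : K) (hb : b ∈ Subgroup.normalizer (U : Set K)) : Odd (orderOf b) := by
  have h1 := D.cardNU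
  have h2 := D.qm
  have h3 := D.modd
  have h4 : Odd (Nat.card (Subgroup.normalizer (U : Set K))) := by
    obtain ⟨n, hn⟩ := h3
    have h5 : q = 8 * n + 3 := by omega
    rw [h5] at h1
    have h6 : Nat.card (Subgroup.normalizer (U : Set K)) = (8 * n + 3) * (4 * n + 1) := by
      have : (8 * n + 3) * (8 * n + 3 - 1) = ((8 * n + 3) * (4 * n + 1)) * 2 := by
        have : 8 * n + 3 - 1 = (4 * n + 1) * 2 := by omega
        rw [this]; ring
      rw [this] at h1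
      exact Nat.eq_of_mul_eq_mul_right (by norm_num) h1
    rw [h6]
    exact Odd.mul ⟨4 * n + 1, by ring⟩ ⟨2 * n, by ring⟩
  refine Odd.of_dvd_nat h4 ?_
  have h7 : orderOf (⟨b, hb⟩ : Subgroup.normalizer (U : Set K)) ∣ Nat.card (Subgroup.normalizer (U : Set K)) :=
    orderOf_dvd_natCard _
  rwa [Subgroup.orderOf_mk] at h7

theorem phi_sum_U (D : KD q m U A k s r) [Fintype U] {θ : A →* ℂ} {φ : K → ℂ} (hφ : IsPhi q U A θ φ) :
    ∑ x : U, φ (x : K) = 0 := by
  classical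
  have h1 : ∀ x : U, φ (x : K) = -1 + (if x = 1 then (q : ℂ) else 0) := by
    intro x
    by_cases hx : x = 1
    · rw [if_pos hx, hx, OneMemClass.coe_one, hφ.one]; ring
    · rw [if_neg hx, hφ.onU x x.2 (fun h => hx (Subtype.ext h))]; ring
  rw [Finset.sum_congr rfl fun x _ => h1 x, Finset.sum_add_distrib, Finset.sum_const, Finset.sum_ite_eq' univ (1 : U)]
  have h2 : Fintype.card U = q := by rw [← Nat.card_eq_fintype_card, D.cardU]
  simp [h2]

theorem phi_sum_B (D : KD q m U A k s r) [Fintype (Subgroup.normalizer (U : Set K))] {θ : A →* ℂ} {φ : K → ℂ}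
    (hφ : IsPhi q U A θ φ) (ψ : Subgroup.normalizer (U : Set K) →* ℂ)
    (hψ : ∀ b : Subgroup.normalizer (U : Set K), (b : K) ∈ U → ψ b = 1) :
    ∑ b : Subgroup.normalizer (U : Set K), φ (b : K) * ψ b⁻¹ = 0 := by
  classical
  have : Fintype U := Fintype.ofFinite U
  rw [← phi_sum_U D hφ]
  symm
  refine Fintype.sum_of_injective (Subgroup.inclusion (Subgroup.le_normalizer (H := U)))
    (Subgroup.inclusion_injective _) _ _ ?_ ?_
  · intro b hb
    have h1 : (b : K) ∉ U := fun h => hb ⟨⟨b, h⟩, Subtype.ext rfl⟩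
    rw [hφ.onB b b.2 h1, zero_mul]
  · intro x
    have h1 : ψ (Subgroup.inclusion (Subgroup.le_normalizer (H := U)) x)⁻¹ = 1 := by
      refine hψ _ ?_
      exact U.inv_mem x.2
    rw [h1, mul_one]
    rfl

end

section

variable {G : Type*} [Group G] [Fintype G] {t : G} {K : Subgroup G} [Fintype K] {q m : ℕ}
  {U A : Subgroup K} {k s r : K}

theorem t_comm (D : RD t K q m U A k s r) (y : K) : (y : G) * t = t * (y : G) := (D.cent _).mpr ⟨y, Or.inl rfl⟩

/-- values on `t U` -/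
theorem exists_val (D : RD t K q m U A k s r) (χ : IrrCharacter G) (hreal : ∀ g, conj ((χ : G → ℂ) g) = (χ : G → ℂ) g) :
    (∃ n : ℤ, (χ : G → ℂ) t = n) ∧ ∃ v : ℤ, ∀ x ∈ U, x ≠ 1 → (χ : G → ℂ) (t * (x : G)) = v := by
  classical
  have : Fintype U := Fintype.ofFinite U
  have hkd := D.kd
  have hU : Nat.card U = q := hkd.cardU
  have hq := hkd.q27
  -- the value at `t`
  have h1 : ∃ n : ℤ, (χ : G → ℂ) t = n := by
    obtain ⟨a, b, _, hb⟩ := exists_nat_parts (irr_isCharacter χ) D.t2 (H := PUnit.{1}) (1 : PUnit.{1} →* G)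
      (fun h => by simp) 1
    refine ⟨(a : ℤ) - b, ?_⟩
    simp only [MonoidHom.one_apply, mul_one, Finset.univ_unique, Finset.sum_const, Finset.card_singleton, one_smul,
      Nat.card_unique, Nat.cast_one] at hb
    rw [hb]; push_cast; rfl
  refine ⟨h1, ?_⟩
  -- constancy
  obtain ⟨x0, hx0⟩ : ∃ x0 : U, x0 ≠ 1 := by
    have : Nontrivial U := Finite.one_lt_card_iff_nontrivial.mp (by rw [hU]; omega)
    exact exists_ne 1
  have hx0' : (x0 : K) ≠ 1 := fun h => hx0 (Subtype.ext h)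
  have hconst : ∀ x ∈ U, x ≠ 1 → (χ : G → ℂ) (t * (x : G)) = (χ : G → ℂ) (t * ((x0 : K) : G)) := by
    intro x hx hx1
    obtain ⟨g, hg⟩ := hkd.Ucl x0 x0.2 hx0' x hx hx1
    have hcl : (χ : G → ℂ) (t * ((g * x0 * g⁻¹ : K) : G)) = (χ : G → ℂ) (t * ((x0 : K) : G)) := by
      have h2 : t * ((g * x0 * g⁻¹ : K) : G) = (g : G) * (t * ((x0 : K) : G)) * (g : G)⁻¹ := by
        push_cast
        rw [← mul_assoc (g : G) t, t_comm D g]
        group
      rw [h2]
      exact irr_isClassFunction χ _ _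
    rcases hg with hg | hg
    · rw [← hcl, hg]
    · rw [hg] at hcl
      rw [← hcl]
      have h3 : t * ((x⁻¹ : K) : G) = (t * (x : G))⁻¹ := by
        rw [mul_inv_rev, inv_eq_of_mul_eq_one_left D.t2]
        push_cast
        have h4 := t_comm D x⁻¹
        push_cast at h4
        exact h4.symm
      rw [h3, irr_inv, hreal]
  -- the sum
  obtain ⟨a, b, _, hb⟩ := exists_nat_parts (irr_isCharacter χ) D.t2 (H := U) (K.subtype.comp U.subtype)
    (fun h => (t_comm D h).symm) 1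
  obtain ⟨n, hn⟩ := h1
  have h5 : ∑ x : U, (χ : G → ℂ) (t * (K.subtype.comp U.subtype) x) * (1 : U →* ℂ) x⁻¹ =
      n + ((q : ℂ) - 1) * (χ : G → ℂ) (t * ((x0 : K) : G)) := by
    have h6 : ∀ x : U, (χ : G → ℂ) (t * (K.subtype.comp U.subtype) x) * (1 : U →* ℂ) x⁻¹ =
        (χ : G → ℂ) (t * ((x0 : K) : G)) + (if x = 1 then ((n : ℂ) - (χ : G → ℂ) (t * ((x0 : K) : G))) else 0) := by
      intro x
      by_cases hx : x = 1
      · rw [if_pos hx, hx]
        simp [hn]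
      · rw [if_neg hx, add_zero, MonoidHom.one_apply, mul_one]
        exact hconst x x.2 (fun h => hx (Subtype.ext h))
    rw [Finset.sum_congr rfl fun x _ => h6 x, Finset.sum_add_distrib, Finset.sum_const,
      Finset.sum_ite_eq' univ (1 : U)]
    have h2 : Fintype.card U = q := by rw [← Nat.card_eq_fintype_card, hU]
    simp [h2]
    ring
  rw [h5, hU] at hb
  have hq1 : ((q : ℂ) - 1) ≠ 0 := by
    intro h
    have h7 : (q : ℂ) = ((1 : ℕ) : ℂ) := by push_cast; linear_combination h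
    have h8 : q = 1 := by exact_mod_cast h7
    omega
  have hint : IsIntegral ℤ ((χ : G → ℂ) (t * ((x0 : K) : G))) := irr_isIntegral χ _
  obtain ⟨v, hv⟩ := Cfsg.Agent.Char.FT.int_of_rat_isIntegral (z := (χ : G → ℂ) (t * ((x0 : K) : G)))
    ((((a : ℚ) - b) * q - n) / ((q : ℚ) - 1)) (by
      push_cast
      rw [eq_div_iff hq1]
      linear_combination hb) hint
  exact ⟨v, fun x hx hx1 => by rw [hconst x hx hx1, hv]⟩

end

/-- the four characters with their values -/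
theorem exists_four {G : Type*} [Group G] [Fintype G] {t : G} {K : Subgroup G} {q m : ℕ}
    {U A : Subgroup K} {k s r : K} {ρ u : G} (D : RR t K q m U A k s r ρ u)
    (hne : ¬ ∀ a ∈ A, ρ * (a : G) * ρ⁻¹ = (a : G)) :
    ∃ (X : Fin 4 → IrrCharacter G) (ε : ℤ) (σ : Fin 4 → ℤ), (ε = 1 ∨ ε = -1) ∧ σ 0 = 3 * ε ∧ σ 1 = -ε ∧
      (∀ g : G, Odd (orderOf g) → ∀ i j, (X i : G → ℂ) g = (X j : G → ℂ) g) ∧
      (∀ j, (X j : G → ℂ) t = ((q : ℂ) - 1) * σ j) ∧
      (∀ j, ∀ x ∈ U, x ≠ 1 → (X j : G → ℂ) (t * (x : G)) = -(σ j : ℂ)) := by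
  classical
  have : Fintype K := Fintype.ofFinite K
  have : Fintype (Subgroup.normalizer (U : Set K)) := Fintype.ofFinite _
  have hD := D.rd
  have hkd := D.rd.kd
  obtain ⟨θ, φ, X, ε, hε, hθ1, hφ, hθθ, hcK, hodd, hsum, hreal⟩ := exists_four0 D hne
  have hεε : (ε : ℂ) * (ε : ℂ) = 1 := by rcases hε with h | h <;> rw [h] <;> norm_num
  have hqq := qq_ne hD
  have hq27 : (27 : ℝ) ≤ q := by exact_mod_cast hkd.q27
  -- the functions `g` and `h`
  let g : Fin 4 → K → ℂ := fun j y => if Odd (orderOf y) then (X j : G → ℂ) (t * (y : G)) else 0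
  let h : K → ℂ := fun y => (g 0 y + g 1 y + g 2 y + g 3 y) / 4
  let o : Fin 3 → Fin 4 → ℂ := fun i j => ((ε * sg i j : ℤ) : ℂ)
  have hgodd : ∀ j y, Odd (orderOf y) → g j y = (X j : G → ℂ) (t * (y : G)) := fun j y hy => if_pos hy
  have hgev : ∀ j y, ¬ Odd (orderOf y) → g j y = 0 := fun j y hy => if_neg hy
  have hgcl : ∀ j (z y : K), g j (z * y * z⁻¹) = g j y := by
    intro j z y
    have h1 : orderOf (z * y * z⁻¹) = orderOf y := by
      have := orderOf_injective (MulAut.conj z).toMonoidHom (MulAut.conj z).injective y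
      simpa using this
    by_cases hy : Odd (orderOf y)
    · rw [hgodd j y hy, hgodd j _ (by rw [h1]; exact hy)]
      have h2 : t * ((z * y * z⁻¹ : K) : G) = (z : G) * (t * (y : G)) * (z : G)⁻¹ := by
        push_cast
        rw [← mul_assoc (z : G) t, t_comm hD z]
        group
      rw [h2]
      exact irr_isClassFunction _ _ _
    · rw [hgev j y hy, hgev j _ (by rw [h1]; exact hy)]
  have hgreal : ∀ j y, conj (g j y) = g j y := by
    intro j y
    by_cases hy : Odd (orderOf y)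
    · rw [hgodd j y hy, hreal]
    · rw [hgev j y hy, map_zero]
  have hhcl : ∀ (z y : K), h (z * y * z⁻¹) = h y := fun z y => by simp only [h, hgcl]
  have hhsup : ∀ y : K, ¬ Odd (orderOf y) → h y = 0 := fun y hy => by simp [h, hgev _ y hy]
  have hhreal : ∀ y, conj (h y) = h y := by
    intro y
    simp only [h, map_div₀, map_add, hgreal, Complex.conj_ofNat]
  -- expansion
  have hexp : ∀ j y, g j y = (o 0 j * φ 0 y + o 1 j * φ 1 y + o 2 j * φ 2 y) + h y := by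
    intro j y
    by_cases hy : Odd (orderOf y)
    · have R0 := hsum 0 y hy
      have R1 := hsum 1 y hy
      have R2 := hsum 2 y hy
      rw [Fin.sum_univ_four] at R0 R1 R2
      simp only [← hgodd _ y hy] at R0 R1 R2
      simp only [sg, Matrix.cons_val_zero, Matrix.cons_val_one, Matrix.cons_val] at R0 R1 R2
      push_cast at R0 R1 R2
      fin_cases j
      · simp only [o, h, sg, Matrix.cons_val_zero, Matrix.cons_val_one, Matrix.cons_val, Fin.zero_eta, Fin.mk_one,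
          Fin.reduceFinMk]
        push_cast
        linear_combination (ε / 4 : ℂ) * R0 + (ε / 4 : ℂ) * R1 + (ε / 4 : ℂ) * R2 -
          ((3 * g 0 y - g 1 y - g 2 y - g 3 y) / 4) * hεε
      · simp only [o, h, sg, Matrix.cons_val_zero, Matrix.cons_val_one, Matrix.cons_val, Fin.zero_eta, Fin.mk_one,
          Fin.reduceFinMk]
        push_cast
        linear_combination (ε / 4 : ℂ) * R0 - (ε / 4 : ℂ) * R1 - (ε / 4 : ℂ) * R2 -
          ((3 * g 1 y - g 0 y - g 2 y - g 3 y) / 4) * hεε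
      · simp only [o, h, sg, Matrix.cons_val_zero, Matrix.cons_val_one, Matrix.cons_val, Fin.zero_eta, Fin.mk_one,
          Fin.reduceFinMk]
        push_cast
        linear_combination -(ε / 4 : ℂ) * R0 + (ε / 4 : ℂ) * R1 - (ε / 4 : ℂ) * R2 -
          ((3 * g 2 y - g 0 y - g 1 y - g 3 y) / 4) * hεε
      · simp only [o, h, sg, Matrix.cons_val_zero, Matrix.cons_val_one, Matrix.cons_val, Fin.zero_eta, Fin.mk_one,
          Fin.reduceFinMk]
        push_cast
        linear_combination -(ε / 4 : ℂ) * R0 - (ε / 4 : ℂ) * R1 + (ε / 4 : ℂ) * R2 -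
          ((3 * g 3 y - g 0 y - g 1 y - g 2 y) / 4) * hεε
    · rw [hgev j y hy, hhsup y hy, (hφ 0).sup y hy, (hφ 1).sup y hy, (hφ 2).sup y hy]; ring
  have hexp0 : ∀ y, h y = g 0 y - (o 0 0 * φ 0 y + o 1 0 * φ 1 y + o 2 0 * φ 2 y) := fun y => by
    rw [hexp 0 y]; ring
  have ho0 : ∀ i, o i 0 = ε := by
    intro i
    fin_cases i <;> simp [o, sg]
  -- sums against functions with odd support
  have hgφ : ∀ j (φ' : K → ℂ), (∀ y, ¬ Odd (orderOf y) → φ' y = 0) →
      ∑ y, g j y * φ' y = ∑ y : K, (X j : G → ℂ) (t * (y : G)) * φ' y := by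
    intro j φ' hφ'
    refine Finset.sum_congr rfl fun y _ => ?_
    by_cases hy : Odd (orderOf y)
    · rw [hgodd j y hy]
    · rw [hφ' y hy, mul_zero, mul_zero]
  have hlin : ∀ φ' : K → ℂ, ∑ y, h y * φ' y = ∑ y, g 0 y * φ' y -
      (ε * ∑ y, φ 0 y * φ' y + ε * ∑ y, φ 1 y * φ' y + ε * ∑ y, φ 2 y * φ' y) := by
    intro φ'
    simp only [Finset.mul_sum, ← Finset.sum_add_distrib, ← Finset.sum_sub_distrib]
    refine Finset.sum_congr rfl fun y _ => ?_
    rw [hexp0 y, ho0, ho0, ho0]; ring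
  have hφφ : ∀ i, 4 * ∑ y : K, φ i y * φ i y = (q : ℂ) * ((q : ℂ) ^ 2 - 1) := fun i => phi_self hkd (hθ1 i) (hφ i)
  have hφφ' : ∀ i j, i ≠ j → ∑ y : K, φ i y * φ j y = 0 := fun i j hij =>
    phi_phi hkd (hθ1 i) (hθ1 j) (hφ i) (hφ j) (hθθ i j hij).1 (hθθ i j hij).2
  have hgφi : ∀ i, 4 * ∑ y, g 0 y * φ i y = ε * ((q : ℂ) * ((q : ℂ) ^ 2 - 1)) := by
    intro i
    rw [hgφ 0 (φ i) (hφ i).sup, hcK i 0]
    congr 1
    exact ho0 i
  have hA0 : ∑ y, h y * φ 0 y = 0 := by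
    have h1 := hlin (φ 0)
    rw [hφφ' 1 0 (by decide), hφφ' 2 0 (by decide)] at h1
    linear_combination h1 + (1 / 4 : ℂ) * hgφi 0 - (ε / 4 : ℂ) * hφφ 0
  have hA1 : ∑ y, h y * φ 1 y = 0 := by
    have h1 := hlin (φ 1)
    rw [hφφ' 0 1 (by decide), hφφ' 2 1 (by decide)] at h1
    linear_combination h1 + (1 / 4 : ℂ) * hgφi 1 - (ε / 4 : ℂ) * hφφ 1
  have hA2 : ∑ y, h y * φ 2 y = 0 := by
    have h1 := hlin (φ 2)
    rw [hφφ' 0 2 (by decide), hφφ' 1 2 (by decide)] at h1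
    linear_combination h1 + (1 / 4 : ℂ) * hgφi 2 - (ε / 4 : ℂ) * hφφ 2
  -- norm of `h`
  have hsq : ∀ (f : K → ℂ), (∀ y, conj (f y) = f y) → ∑ y, f y * f y = ((∑ y : K, ‖f y‖ ^ 2 : ℝ) : ℂ) := by
    intro f hf
    push_cast
    refine Finset.sum_congr rfl fun y _ => ?_
    have h3 := Complex.mul_conj (f y)
    rw [hf y, Complex.normSq_eq_norm_sq] at h3
    rw [h3]; push_cast; rfl
  have hnorm : 4 * ∑ y : K, ‖h y‖ ^ 2 < (q : ℝ) * ((q : ℝ) ^ 2 - 1) := by
    have h1 := norm_lt hD.t1 hD.t2 hD.tK hD.cent (X 0) (g 0) (fun y hy => hgodd 0 y hy) (fun y hy => hgev 0 y hy)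
    have h2 : 4 * ∑ y, g 0 y * g 0 y = 3 * ((q : ℂ) * ((q : ℂ) ^ 2 - 1)) + 4 * ∑ y, h y * h y := by
      have e1 : ∑ y, g 0 y * g 0 y = (ε * ∑ y, g 0 y * φ 0 y + ε * ∑ y, g 0 y * φ 1 y + ε * ∑ y, g 0 y * φ 2 y) +
          ∑ y, g 0 y * h y := by
        simp only [Finset.mul_sum, ← Finset.sum_add_distrib]
        refine Finset.sum_congr rfl fun y _ => ?_
        have := hexp 0 y
        rw [ho0, ho0, ho0] at this
        linear_combination (g 0 y) * this
      have e2 : ∑ y, g 0 y * h y = (ε * ∑ y, h y * φ 0 y + ε * ∑ y, h y * φ 1 y + ε * ∑ y, h y * φ 2 y) +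
          ∑ y, h y * h y := by
        simp only [Finset.mul_sum, ← Finset.sum_add_distrib]
        refine Finset.sum_congr rfl fun y _ => ?_
        have := hexp 0 y
        rw [ho0, ho0, ho0] at this
        linear_combination (h y) * this
      rw [hA0, hA1, hA2] at e2
      have g0 := hgφi 0
      have g1 := hgφi 1
      have g2 := hgφi 2
      rw [e1, e2]
      linear_combination (ε : ℂ) * g0 + (ε : ℂ) * g1 + (ε : ℂ) * g2 + 3 * ((q : ℂ) * ((q : ℂ) ^ 2 - 1)) * hεε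
    rw [hsq _ (hgreal 0), hsq _ hhreal] at h2
    have h3 : 4 * ∑ y : K, ‖g 0 y‖ ^ 2 = 3 * ((q : ℝ) * ((q : ℝ) ^ 2 - 1)) + 4 * ∑ y : K, ‖h y‖ ^ 2 := by
      exact_mod_cast h2
    have h4 : (q : ℝ) * ((q : ℝ) ^ 2 - 1) = 2 * (Nat.card K : ℝ) := by
      have := cardK_eq hD
      exact_mod_cast this
    linarith
  -- `h` is perpendicular to all `φ_θ`
  have hperp : ∀ (θ' : A →* ℂ) (φ' : K → ℂ), θ' ≠ 1 → IsPhi q U A θ' φ' → ∑ y : K, h y * φ' y = 0 := by
    intro θ' φ' hθ' hφ'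
    have : Fintype A := Fintype.ofFinite A
    have h1 : ∀ l, ∃ n : ℤ, 4 * ∑ y : K, φ l y * φ' y = (n : ℂ) * ((q : ℂ) * ((q : ℂ) ^ 2 - 1)) := by
      intro l
      by_cases hl : θ' = θ l ∨ ∀ a : A, θ' a = θ l a⁻¹
      · exact ⟨1, by rw [phi_same hkd (hθ1 l) (hφ l) hφ' hl]; simp⟩
      · push Not at hl
        obtain ⟨hl1, a, hl2⟩ := hl
        refine ⟨0, ?_⟩
        rw [phi_phi hkd (hθ1 l) hθ' (hφ l) hφ' (Ne.symm hl1) ⟨a⁻¹, by rw [inv_inv]; exact (Ne.symm hl2)⟩]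
        simp
    obtain ⟨n0, hn0⟩ := h1 0
    obtain ⟨n1, hn1⟩ := h1 1
    obtain ⟨n2, hn2⟩ := h1 2
    obtain ⟨z, w, hz, _⟩ := c_int hD (irr_isCharacter (X 0)) hθ' hφ'
    refine h_perp h φ' (z - ε * n0 - ε * n1 - ε * n2) hq27 ?_ hnorm hφ'.real (phi_self hkd hθ' hφ')
    rw [hlin φ', hgφ 0 φ' hφ'.sup]
    push_cast
    linear_combination hz - (ε : ℂ) * hn0 - (ε : ℂ) * hn1 - (ε : ℂ) * hn2
  -- integrality
  obtain ⟨⟨nt, hnt⟩, v, hv⟩ := exists_val hD (X 0) (hreal 0)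
  have hone : Odd (orderOf (1 : K)) := by rw [orderOf_one]; exact odd_one
  have hg1 : g 0 1 = nt := by
    rw [hgodd 0 1 hone]
    simpa using hnt
  have hUodd : ∀ x ∈ U, Odd (orderOf x) := fun x hx => oddB hkd x (Subgroup.le_normalizer hx)
  have hgx : ∀ x ∈ U, x ≠ 1 → g 0 x = v := fun x hx hx1 => by
    rw [hgodd 0 x (hUodd x hx)]; exact hv x hx hx1
  have hh1 : h 1 = ((nt - 3 * ε * (q - 1) : ℤ) : ℂ) := by
    rw [hexp0, hg1, ho0, ho0, ho0, (hφ 0).one, (hφ 1).one, (hφ 2).one]; push_cast; ring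
  have hhx : ∀ x ∈ U, x ≠ 1 → h x = ((v + 3 * ε : ℤ) : ℂ) := fun x hx hx1 => by
    rw [hexp0, hgx x hx hx1, ho0, ho0, ho0, (hφ 0).onU x hx hx1, (hφ 1).onU x hx hx1, (hφ 2).onU x hx hx1]
    push_cast; ring
  have hB : ∀ ψ : Subgroup.normalizer (U : Set K) →* ℂ,
      (∀ b : Subgroup.normalizer (U : Set K), (b : K) ∈ U → ψ b = 1) →
      ∃ z : ℤ, ∑ b : Subgroup.normalizer (U : Set K), h b * ψ b⁻¹ =
        z * (Nat.card (Subgroup.normalizer (U : Set K)) : ℂ) := by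
    intro ψ hψ
    obtain ⟨a, b, _, hab⟩ := exists_nat_parts (irr_isCharacter (X 0)) hD.t2
      (K.subtype.comp (Subgroup.normalizer (U : Set K)).subtype) (fun b => (t_comm hD b).symm) ψ
    refine ⟨(a : ℤ) - b, ?_⟩
    have h1 : ∑ b : Subgroup.normalizer (U : Set K), h b * ψ b⁻¹ =
        ∑ b : Subgroup.normalizer (U : Set K), (X 0 : G → ℂ)
          (t * (K.subtype.comp (Subgroup.normalizer (U : Set K)).subtype) b) * ψ b⁻¹ -
        (ε * ∑ b : Subgroup.normalizer (U : Set K), φ 0 b * ψ b⁻¹ +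
          ε * ∑ b : Subgroup.normalizer (U : Set K), φ 1 b * ψ b⁻¹ +
          ε * ∑ b : Subgroup.normalizer (U : Set K), φ 2 b * ψ b⁻¹) := by
      simp only [Finset.mul_sum, ← Finset.sum_add_distrib, ← Finset.sum_sub_distrib]
      refine Finset.sum_congr rfl fun b _ => ?_
      rw [hexp0, ho0, ho0, ho0, hgodd 0 b (oddB hkd b b.2)]
      simp only [MonoidHom.comp_apply, Subgroup.subtype_apply]
      ring
    rw [h1, hab, phi_sum_B hkd (hφ 0) ψ hψ, phi_sum_B hkd (hφ 1) ψ hψ, phi_sum_B hkd (hφ 2) ψ hψ]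
    push_cast
    ring
  have hn := H42.RtHB.h_borel hkd h hhcl hhsup _ _ hh1 hhx hB hnorm
  have hs := h_torus hkd h hhcl hhsup _ _ hh1 hhx hn hperp hnorm
  rw [hs, mul_zero, add_zero] at hn
  rw [hn] at hh1
  rw [hs] at hhx
  refine ⟨X, ε, fun j => ε * sg 0 j + ε * sg 1 j + ε * sg 2 j, hε, ?_, ?_, hodd, ?_, ?_⟩
  · simp [sg] <;> ring
  · simp [sg] <;> ring
  · intro j
    have h1 := hexp j 1
    rw [hgodd j 1 hone, hh1, (hφ 0).one, (hφ 1).one, (hφ 2).one] at h1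
    rw [OneMemClass.coe_one, mul_one] at h1
    rw [h1]
    simp only [o]
    push_cast
    ring
  · intro j x hx hx1
    have h1 := hexp j x
    rw [hgodd j x (hUodd x hx), hhx x hx hx1, (hφ 0).onU x hx hx1, (hφ 1).onU x hx hx1, (hφ 2).onU x hx hx1] at h1
    rw [h1]
    simp only [o]
    push_cast
    ring

/-- [P4] -/
theorem case1 {G : Type*} [Group G] [Finite G] {t : G} {K : Subgroup G} {q m : ℕ} {U A : Subgroup K} {k s r : K}
    {ρ u : G} (D : RR t K q m U A k s r ρ u) (h : ¬ ∀ a ∈ A, ρ * (a : G) * ρ⁻¹ = (a : G)) : False := by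
  have : Fintype G := Fintype.ofFinite G
  obtain ⟨X, ε, σ, hε, h0, h1, hodd, ht, htx⟩ := exists_four D h
  exact final D.rd X ε hε σ h0 h1 hodd ht htx

end Cfsg.Agent.H92.Rt
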