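import Mathlib

/-!
# Three orthogonal vectors of norm 4, congruent modulo 2; characters of a cyclic group moved by an automorphism
-/

set_option autoImplicit false

namespace Cfsg.Agent.H92.Rt

open Finset

/-- orthogonal rows give orthogonal columns -/
theorem col_orth {X : Type*} [DecidableEq X] (S : Finset X) (hS : S.card = 4) (r : Fin 4 → X → ℤ)
    (ho : ∀ i j, ∑ x ∈ S, r i x * r j x = if i = j then 4 else 0) (x : X) (hx : x ∈ S) (y : X) (hy : y ∈ S) :
    ∑ i, r i x * r i y = if x = y then 4 else 0 := by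
  classical
  have e : Fin 4 ≃ S := (Fintype.equivFinOfCardEq (by simpa using hS)).symm
  obtain ⟨M, hM⟩ : ∃ M : Matrix (Fin 4) (Fin 4) ℚ, ∀ i j, M i j = (r i (e j : X) : ℚ) := ⟨Matrix.of fun i j => _, fun _ _ => rfl⟩
  obtain ⟨N, hN⟩ : ∃ N : Matrix (Fin 4) (Fin 4) ℚ, ∀ j i, N j i = (r i (e j : X) : ℚ) / 4 :=
    ⟨Matrix.of fun j i => _, fun _ _ => rfl⟩
  have hMN : M * N = 1 := by
    ext i j
    rw [Matrix.mul_apply, Matrix.one_apply]
    simp only [hM, hN]
    have h1 : ∑ k : Fin 4, (r i (e k : X) : ℚ) * ((r j (e k : X) : ℚ) / 4) =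
        ((∑ x ∈ S, r i x * r j x : ℤ) : ℚ) / 4 := by
      push_cast
      rw [← Finset.sum_coe_sort S, ← Equiv.sum_comp e, Finset.sum_div]
      exact Finset.sum_congr rfl fun k _ => by ring
    rw [h1, ho i j]
    split_ifs <;> norm_num
  have hNM : N * M = 1 := mul_eq_one_comm.mp hMN
  obtain ⟨a, ha⟩ := e.surjective ⟨x, hx⟩
  obtain ⟨b, hb⟩ := e.surjective ⟨y, hy⟩
  have h2 := congrFun (congrFun hNM a) b
  rw [Matrix.mul_apply, Matrix.one_apply] at h2
  simp only [hM, hN, ha, hb] at h2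
  have h3 : ((∑ i, r i x * r i y : ℤ) : ℚ) = 4 * (if a = b then 1 else 0) := by
    rw [← h2]
    push_cast
    rw [Finset.mul_sum]
    exact Finset.sum_congr rfl fun k _ => by ring
  have h4 : (a = b) ↔ (x = y) := by
    constructor
    · rintro rfl
      have := ha.symm.trans hb
      simpa using this
    · rintro rfl
      exact e.injective (ha.trans hb.symm)
  by_cases hxy : x = y
  · rw [if_pos (h4.mpr hxy)] at h3
    rw [if_pos hxy]
    exact_mod_cast h3
  · rw [if_neg (fun h => hxy (h4.mp h))] at h3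
    rw [if_neg hxy]
    have : ((∑ i, r i x * r i y : ℤ) : ℚ) = 0 := by rw [h3]; ring
    exact_mod_cast this

/-- the sign pattern -/
def sg : Fin 3 → Fin 4 → ℤ := ![![1, 1, -1, -1], ![1, -1, 1, -1], ![1, -1, -1, 1]]

theorem four_pattern {X : Type*} [Fintype X] [DecidableEq X] (c : Fin 3 → X → ℤ)
    (ho : ∀ i j, ∑ x, c i x * c j x = if i = j then 4 else 0)
    (hp : ∀ i j x, (2 : ℤ) ∣ c i x - c j x) (d : X → ℕ) (hd : ∀ x, 0 < d x)
    (hcd : ∀ i, ∑ x, c i x * (d x : ℤ) = 0) :
    ∃ (χ : Fin 4 → X) (ε : ℤ), (ε = 1 ∨ ε = -1) ∧ Function.Injective χ ∧ (∀ i j, c i (χ j) = ε * sg i j) ∧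
      (∀ i x, (∀ j, χ j ≠ x) → c i x = 0) ∧ (∀ x, (∀ i, c i x = c i (χ 0)) → x = χ 0) ∧
      (∀ j x, (∀ i, c i x = c i (χ j)) → x = χ j) ∧
      ∀ v : X → ℂ, (∀ i, ∑ x, (c i x : ℂ) * v x = 0) → ∀ j j', v (χ j) = v (χ j') := by
  classical
  have hsq : ∀ i x, c i x * c i x ≤ 4 := fun i x => by
    have h := ho i i
    rw [if_pos rfl] at h
    rw [← h]
    exact Finset.single_le_sum (f := fun x => c i x * c i x) (fun y _ => mul_self_nonneg _) (Finset.mem_univ x)
  -- the values are at most one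
  have h1 : ∀ i x, c i x = 0 ∨ c i x = 1 ∨ c i x = -1 := by
    intro i x
    by_contra hc
    push Not at hc
    have h2 : c i x = 2 ∨ c i x = -2 := by
      have := hsq i x
      have h3 : c i x ≤ 2 := by nlinarith
      have h4 : -2 ≤ c i x := by nlinarith
      obtain ⟨h5, h6, h7⟩ := hc
      omega
    have h3 : c i x * c i x = 4 := by rcases h2 with h | h <;> rw [h] <;> norm_num
    have h4 : ∀ y, y ≠ x → c i y = 0 := by
      intro y hy
      have h := ho i i
      rw [if_pos rfl, ← Finset.add_sum_erase _ _ (Finset.mem_univ x), h3] at h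
      have h5 : ∑ z ∈ univ.erase x, c i z * c i z = 0 := by linarith
      have h6 := (Finset.sum_eq_zero_iff_of_nonneg (fun z _ => mul_self_nonneg (c i z))).mp h5 y
        (Finset.mem_erase.mpr ⟨hy, Finset.mem_univ _⟩)
      exact mul_self_eq_zero.mp h6
    have h5 := hcd i
    rw [Finset.sum_eq_single x (fun y _ hy => by rw [h4 y hy, zero_mul])
      (fun h => absurd (Finset.mem_univ x) h)] at h5
    have h6 : (d x : ℤ) > 0 := by exact_mod_cast hd x
    rcases h2 with h | h <;> rw [h] at h5 <;> omega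
  let S : Finset X := univ.filter fun x => c 0 x ≠ 0
  have hSi : ∀ i x, x ∈ S ↔ c i x ≠ 0 := by
    intro i x
    have h2 := hp i 0 x
    have h3 := h1 i x
    have h4 := h1 0 x
    simp only [S, Finset.mem_filter, Finset.mem_univ, true_and]
    omega
  have hS2 : ∀ i x, x ∈ S → c i x * c i x = 1 := by
    intro i x hx
    have h3 := h1 i x
    have h4 := (hSi i x).mp hx
    rcases h3 with h | h | h
    · exact absurd h h4
    · rw [h]; norm_num
    · rw [h]; norm_num
  have hSn : ∀ i x, x ∉ S → c i x = 0 := fun i x hx => by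
    by_contra h
    exact hx ((hSi i x).mpr h)
  have hsumS : ∀ i j, ∑ x ∈ S, c i x * c j x = if i = j then 4 else 0 := by
    intro i j
    rw [← ho i j]
    exact Finset.sum_subset (Finset.subset_univ S) (fun x _ hx => by rw [hSn i x hx, zero_mul])
  have hcard : S.card = 4 := by
    have h := hsumS 0 0
    rw [if_pos rfl, Finset.sum_congr rfl (fun x hx => hS2 0 x hx)] at h
    have h' : (S.card : ℤ) = 4 := by simpa using h
    exact_mod_cast h'
  let e : X → ℤ := fun x => c 0 x * c 1 x * c 2 x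
  let R : Fin 4 → X → ℤ := ![c 0, c 1, c 2, e]
  have hR : ∀ i j, ∑ x ∈ S, R i x * R j x = if i = j then 4 else 0 := by
    have h01 := hsumS 0 1
    have h02 := hsumS 0 2
    have h12 := hsumS 1 2
    have h00 := hsumS 0 0
    have h11 := hsumS 1 1
    have h22 := hsumS 2 2
    simp only [Fin.isValue, if_true] at h00 h11 h22
    rw [if_neg (by decide)] at h01 h02 h12
    have g0 : ∑ x ∈ S, c 0 x * e x = 0 := by
      rw [← h12]
      exact Finset.sum_congr rfl fun x hx => by
        have := hS2 0 x hx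
        simp only [e]
        linear_combination (c 1 x * c 2 x) * this
    have g1 : ∑ x ∈ S, c 1 x * e x = 0 := by
      rw [← h02]
      exact Finset.sum_congr rfl fun x hx => by
        have := hS2 1 x hx
        simp only [e]
        linear_combination (c 0 x * c 2 x) * this
    have g2 : ∑ x ∈ S, c 2 x * e x = 0 := by
      rw [← h01]
      exact Finset.sum_congr rfl fun x hx => by
        have := hS2 2 x hx
        simp only [e]
        linear_combination (c 0 x * c 1 x) * this
    have g3 : ∑ x ∈ S, e x * e x = 4 := by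
      rw [← h00]
      exact Finset.sum_congr rfl fun x hx => by
        have h0 := hS2 0 x hx
        have h1 := hS2 1 x hx
        have h2 := hS2 2 x hx
        simp only [e]
        calc c 0 x * c 1 x * c 2 x * (c 0 x * c 1 x * c 2 x) = (c 0 x * c 0 x) * (c 1 x * c 1 x) * (c 2 x * c 2 x) := by
              ring
          _ = c 0 x * c 0 x := by rw [h0, h1, h2]; norm_num
    have hsym : ∀ a b : X → ℤ, ∑ x ∈ S, a x * b x = ∑ x ∈ S, b x * a x :=
      fun a b => Finset.sum_congr rfl fun x _ => mul_comm _ _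
    intro i j
    fin_cases i <;> fin_cases j <;>
      simp [R, h00, h11, h22, h01, h02, h12, g0, g1, g2, g3, hsym (c 1) (c 0), hsym (c 2) (c 0), hsym (c 2) (c 1),
        hsym e (c 0), hsym e (c 1), hsym e (c 2)]
  have hcol := col_orth S hcard R hR
  -- a vector orthogonal to the three rows
  have hv : ∀ v : X → ℂ, (∀ i, ∑ x, (c i x : ℂ) * v x = 0) → ∀ x ∈ S, 4 * v x = e x * ∑ y ∈ S, (e y : ℂ) * v y := by
    intro v hv x hx
    have h2 : ∀ i, ∑ y ∈ S, (c i y : ℂ) * v y = 0 := fun i => by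
      rw [← hv i]
      exact Finset.sum_subset (Finset.subset_univ S) (fun y _ hy => by rw [hSn i y hy]; simp)
    have h3 : ∑ y ∈ S, ((∑ i, R i x * R i y : ℤ) : ℂ) * v y = 4 * v x := by
      rw [Finset.sum_eq_single x]
      · rw [hcol x hx x hx, if_pos rfl]; norm_num
      · intro y hy hyx
        rw [hcol x hx y hy, if_neg (Ne.symm hyx)]
        simp
      · exact fun h => absurd hx h
    rw [← h3]
    have h4 : ∀ y, ((∑ i, R i x * R i y : ℤ) : ℂ) * v y =
        (c 0 x : ℂ) * ((c 0 y : ℂ) * v y) + (c 1 x : ℂ) * ((c 1 y : ℂ) * v y) + (c 2 x : ℂ) * ((c 2 y : ℂ) * v y) +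
          (e x : ℂ) * ((e y : ℂ) * v y) := by
      intro y
      rw [Fin.sum_univ_four]
      simp only [R, Matrix.cons_val_zero, Matrix.cons_val_one, Matrix.cons_val]
      push_cast
      ring
    rw [Finset.sum_congr rfl fun y _ => h4 y]
    simp only [Finset.sum_add_distrib, ← Finset.mul_sum, h2]
    ring
  -- `e` is constant on `S`
  obtain ⟨x0, hx0⟩ : S.Nonempty := Finset.card_pos.mp (by omega)
  have he1 : ∀ x ∈ S, e x = 1 ∨ e x = -1 := by
    intro x hx
    have h0 := h1 0 x
    have h0' := (hSi 0 x).mp hx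
    have h1' := h1 1 x
    have h1'' := (hSi 1 x).mp hx
    have h2 := h1 2 x
    have h2' := (hSi 2 x).mp hx
    simp only [e]
    rcases h0 with h | h | h <;> rcases h1' with g | g | g <;> rcases h2 with f | f | f <;>
      first | (exact absurd h h0') | (exact absurd g h1'') | (exact absurd f h2') | (rw [h, g, f]; norm_num)
  have hec : ∀ x ∈ S, e x = e x0 := by
    have h2 := hv (fun x => (d x : ℂ)) (fun i => by
      have := hcd i
      have h3 : ((∑ x, c i x * (d x : ℤ) : ℤ) : ℂ) = 0 := by rw [this]; simp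
      push_cast at h3
      exact h3)
    have h3 : ∀ x ∈ S, 4 * (d x : ℤ) = e x * ∑ y ∈ S, e y * (d y : ℤ) := by
      intro x hx
      have := h2 x hx
      exact_mod_cast this
    intro x hx
    have h4 := h3 x hx
    have h5 := h3 x0 hx0
    have h6 : (0 : ℤ) < d x := by exact_mod_cast hd x
    have h7 : (0 : ℤ) < d x0 := by exact_mod_cast hd x0
    rcases he1 x hx with h | h <;> rcases he1 x0 hx0 with g | g <;> rw [h, g] <;> rw [h] at h4 <;> rw [g] at h5 <;>
      first | rfl | (exfalso; linarith)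
  set ε : ℤ := e x0 with hε
  have hε1 : ε = 1 ∨ ε = -1 := he1 x0 hx0
  have hεε : ε * ε = 1 := by rcases hε1 with h | h <;> rw [h] <;> norm_num
  have hsum : ∀ i, ∑ x ∈ S, c i x = 0 := by
    intro i
    have h2 : ∑ x ∈ S, c i x * e x = 0 := by
      have := hR (Fin.castSucc i) 3
      rw [if_neg (by fin_cases i <;> decide)] at this
      rw [← this]
      refine Finset.sum_congr rfl fun x _ => ?_
      fin_cases i <;> simp [R]
    have h3 : ∑ x ∈ S, c i x * e x = ε * ∑ x ∈ S, c i x := by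
      rw [Finset.mul_sum]
      exact Finset.sum_congr rfl fun x hx => by rw [hec x hx]; ring
    rw [h3] at h2
    rcases mul_eq_zero.mp h2 with h | h
    · rw [h] at hεε; norm_num at hεε
    · exact h
  -- every pair of signs occurs
  have hex : ∀ a b : ℤ, (a = 1 ∨ a = -1) → (b = 1 ∨ b = -1) → ∃ x ∈ S, c 0 x = a ∧ c 1 x = b := by
    intro a b ha hb
    have h2 : ∑ x ∈ S, (1 + a * c 0 x) * (1 + b * c 1 x) = 4 := by
      have h3 : ∀ x ∈ S, (1 + a * c 0 x) * (1 + b * c 1 x) = 1 + a * c 0 x + b * c 1 x + (a * b) * (c 0 x * c 1 x) :=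
        fun x _ => by ring
      rw [Finset.sum_congr rfl h3]
      simp only [Finset.sum_add_distrib, ← Finset.mul_sum, hsum 0, hsum 1, hsumS 0 1]
      simp [hcard]
    obtain ⟨x, hx, hx2⟩ := Finset.exists_ne_zero_of_sum_ne_zero (s := S)
      (f := fun x => (1 + a * c 0 x) * (1 + b * c 1 x)) (by rw [h2]; norm_num)
    refine ⟨x, hx, ?_⟩
    have h0 := h1 0 x
    have h0' := (hSi 0 x).mp hx
    have h1' := h1 1 x
    have h1'' := (hSi 1 x).mp hx
    have h5 : 1 + a * c 0 x ≠ 0 := left_ne_zero_of_mul hx2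
    have h6 : 1 + b * c 1 x ≠ 0 := right_ne_zero_of_mul hx2
    constructor
    · rcases ha with rfl | rfl <;> omega
    · rcases hb with rfl | rfl <;> omega
  have hc2 : ∀ x ∈ S, c 2 x = ε * (c 0 x * c 1 x) := by
    intro x hx
    have h2 := hec x hx
    have h3 := hS2 0 x hx
    have h4 := hS2 1 x hx
    simp only [e] at h2
    have h5 : (c 0 x * c 1 x) * (c 0 x * c 1 x * c 2 x) = c 2 x := by
      calc (c 0 x * c 1 x) * (c 0 x * c 1 x * c 2 x) = (c 0 x * c 0 x) * (c 1 x * c 1 x) * c 2 x := by ring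
        _ = c 2 x := by rw [h3, h4]; ring
    rw [← h5, h2]; ring
  have hm : (-ε = 1 ∨ -ε = -1) := by rcases hε1 with h | h <;> rw [h] <;> norm_num
  obtain ⟨y0, hy0, hy0a, hy0b⟩ := hex ε ε hε1 hε1
  obtain ⟨y1, hy1, hy1a, hy1b⟩ := hex ε (-ε) hε1 hm
  obtain ⟨y2, hy2, hy2a, hy2b⟩ := hex (-ε) ε hm hε1
  obtain ⟨y3, hy3, hy3a, hy3b⟩ := hex (-ε) (-ε) hm hm
  let χ : Fin 4 → X := ![y0, y1, y2, y3]
  have hχS : ∀ j, χ j ∈ S := by
    intro j
    fin_cases j
    · exact hy0
    · exact hy1
    · exact hy2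
    · exact hy3
  have hχc : ∀ i j, c i (χ j) = ε * sg i j := by
    have hc20 := hc2 y0 hy0
    have hc21 := hc2 y1 hy1
    have hc22 := hc2 y2 hy2
    have hc23 := hc2 y3 hy3
    rw [hy0a, hy0b] at hc20
    rw [hy1a, hy1b] at hc21
    rw [hy2a, hy2b] at hc22
    rw [hy3a, hy3b] at hc23
    intro i j
    fin_cases i <;> fin_cases j <;> simp [χ, sg, hy0a, hy0b, hy1a, hy1b, hy2a, hy2b, hy3a, hy3b, hc20, hc21, hc22, hc23,
      hεε]
  have hinj : Function.Injective χ := by
    intro i j hij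
    have h2 : ∀ l, ε * sg l i = ε * sg l j := fun l => by rw [← hχc l i, ← hχc l j, hij]
    have h3 : ∀ l, sg l i = sg l j := fun l => by
      have := h2 l
      have h4 : ε ≠ 0 := by intro h; rw [h] at hεε; norm_num at hεε
      exact mul_left_cancel₀ h4 this
    have h4 := h3 0
    have h5 := h3 1
    revert h4 h5
    fin_cases i <;> fin_cases j <;> simp [sg]
  have hrange : ∀ x ∈ S, ∃ j, χ j = x := by
    have h2 : (Finset.univ.image χ) = S := by
      apply Finset.eq_of_subset_of_card_le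
      · intro y hy
        obtain ⟨j, _, rfl⟩ := Finset.mem_image.mp hy
        exact hχS j
      · rw [hcard, Finset.card_image_of_injective _ hinj]; simp
    intro x hx
    rw [← h2] at hx
    obtain ⟨j, _, hj⟩ := Finset.mem_image.mp hx
    exact ⟨j, hj⟩
  have huniq : ∀ j x, (∀ i, c i x = c i (χ j)) → x = χ j := by
    intro j x hx
    have hxS : x ∈ S := by
      rw [hSi 0 x, hx 0]
      exact (hSi 0 _).mp (hχS j)
    obtain ⟨l, rfl⟩ := hrange x hxS
    congr 1
    have h2 : ∀ i, sg i l = sg i j := fun i => by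
      have := hx i
      rw [hχc, hχc] at this
      have h4 : ε ≠ 0 := by intro h; rw [h] at hεε; norm_num at hεε
      exact mul_left_cancel₀ h4 this
    have h4 := h2 0
    have h5 := h2 1
    revert h4 h5
    fin_cases l <;> fin_cases j <;> simp [sg]
  refine ⟨χ, ε, hε1, hinj, hχc, ?_, fun x hx => huniq 0 x hx, huniq, ?_⟩
  · intro i x hx
    refine hSn i x fun hxS => ?_
    obtain ⟨j, hj⟩ := hrange x hxS
    exact hx j hj
  · intro v hv' j j'
    have h2 := hv v hv' (χ j) (hχS j)
    have h3 := hv v hv' (χ j') (hχS j')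
    rw [hec _ (hχS j)] at h2
    rw [hec _ (hχS j')] at h3
    have h4 : (4 : ℂ) * v (χ j) = 4 * v (χ j') := h2.trans h3.symm
    exact mul_left_cancel₀ (by norm_num) h4

/-- a nontrivial automorphism of order 3 of a cyclic group moves a character -/
theorem exists_theta {A : Type*} [Group A] [Finite A] [IsCyclic A] (α : A ≃* A) (h3 : ∀ a, α (α (α a)) = a)
    (hne : ¬ ∀ a, α a = a) :
    ∃ θ : Fin 3 → (A →* ℂ), (∀ i, θ i ≠ 1) ∧ (∀ i j, i ≠ j → θ i ≠ θ j) ∧
      (∀ i j, i ≠ j → ∃ a, θ i a ≠ θ j a⁻¹) ∧ (∀ a, θ 1 a = θ 0 (α a)) ∧ (∀ a, θ 2 a = θ 0 (α (α a))) := by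
  classical
  let _ : CommGroup A := IsCyclic.commGroup
  push Not at hne
  obtain ⟨b, hb⟩ := hne
  have hb' : b⁻¹ * α b ≠ 1 := fun h => hb (by
    have := congrArg (b * ·) h
    simpa using this)
  obtain ⟨ψ, hψ⟩ := CommGroup.exists_apply_ne_one_of_hasEnoughRootsOfUnity A ℂ hb'
  let θ0 : A →* ℂ := (Units.coeHom ℂ).comp ψ
  have hθ0 : θ0 (α b) ≠ θ0 b := by
    intro h
    apply hψ
    have h2 : ψ (α b) = ψ b := Units.ext h
    rw [map_mul, h2, map_inv, inv_mul_cancel]
  have hA : ¬ ∀ a, θ0 (α a) = θ0 a := fun h => hθ0 (h b)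
  have hB : ¬ ∀ a, θ0 (α (α a)) = θ0 a := fun h => hA fun a => by
    have := h (α a)
    rw [h3] at this
    exact this.symm
  have hinv : ∀ a, θ0 (a⁻¹)⁻¹ = θ0 a := fun a => by rw [inv_inv]
  -- no inverse coincidences
  have hC : ¬ ∀ a, θ0 (α a) = θ0 a⁻¹ := fun h => hB fun a => by
    have h2 := h (α a)
    have h4 := h a⁻¹
    rw [h2, ← map_inv, h4, inv_inv]
  have hD : ¬ ∀ a, θ0 (α (α a)) = θ0 a⁻¹ := fun h => hA fun a => by
    have h2 := h (α (α a))
    rw [h3] at h2
    have h4 := h a⁻¹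
    rw [inv_inv] at h4
    have e1 : (α (α a))⁻¹ = α (α a⁻¹) := by rw [map_inv α, map_inv α]
    rw [h2, e1, h4]
  refine ⟨![θ0, θ0.comp α.toMonoidHom, θ0.comp (α.toMonoidHom.comp α.toMonoidHom)], ?_, ?_, ?_, fun a => rfl,
    fun a => rfl⟩
  · intro i
    fin_cases i
    · intro h
      apply hA
      intro a
      have : θ0 = 1 := h
      rw [this]; rfl
    · intro h
      apply hA
      intro a
      have h2 : ∀ a, θ0 (α a) = 1 := fun a => DFunLike.congr_fun h a
      have h4 : ∀ a, θ0 a = 1 := fun a => by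
        have := h2 (α (α a))
        rwa [h3] at this
      rw [h4, h4]
    · intro h
      apply hA
      intro a
      have h2 : ∀ a, θ0 (α (α a)) = 1 := fun a => DFunLike.congr_fun h a
      have h4 : ∀ a, θ0 a = 1 := fun a => by
        have := h2 (α a)
        rwa [h3] at this
      rw [h4, h4]
  · intro i j hij h
    have h2 := fun a => DFunLike.congr_fun h a
    fin_cases i <;> fin_cases j
    · exact hij rfl
    · exact hA fun a => (h2 a).symm
    · exact hB fun a => (h2 a).symm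
    · exact hA fun a => h2 a
    · exact hij rfl
    · refine hA fun a => ?_
      have : ∀ a, θ0 (α a) = θ0 (α (α a)) := fun a => h2 a
      have h5 := this (α (α a))
      rw [h3] at h5
      rw [h5]
    · exact hB fun a => h2 a
    · refine hA fun a => ?_
      have : ∀ a, θ0 (α (α a)) = θ0 (α a) := fun a => h2 a
      have h5 := this (α (α a))
      rw [h3, h3] at h5
      exact h5
    · exact hij rfl
  · intro i j hij
    by_contra hcon
    push Not at hcon
    fin_cases i <;> fin_cases j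
    · exact hij rfl
    · -- θ0 a = θ0 (α a⁻¹)
      refine hC fun a => ?_
      have h2 : θ0 a⁻¹ = θ0 (α (a⁻¹)⁻¹) := hcon a⁻¹
      rw [h2, inv_inv]
    · refine hD fun a => ?_
      have h2 : θ0 a⁻¹ = θ0 (α (α (a⁻¹)⁻¹)) := hcon a⁻¹
      rw [h2, inv_inv]
    · exact hC fun a => hcon a
    · exact hij rfl
    · -- θ0 (α a) = θ0 (α (α a⁻¹))
      refine hC fun a => ?_
      have h2 : ∀ a, θ0 (α a) = θ0 (α (α a⁻¹)) := fun a => hcon a
      have h4 := h2 (α (α a⁻¹))
      rw [h3] at h4
      rw [h4, ← map_inv, ← map_inv, inv_inv, h3]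
    · exact hD fun a => hcon a
    · refine hC fun a => ?_
      have h2 : ∀ a, θ0 (α (α a)) = θ0 (α a⁻¹) := fun a => hcon a
      have h4 := h2 (α (α a))
      rw [h3] at h4
      rw [h4, ← map_inv, ← map_inv, h3]
    · exact hij rfl

end Cfsg.Agent.H92.Rt
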