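import Cfsg.Agent.H92.RtAl
import Cfsg.Agent.H92.RtC4a
import Cfsg.Agent.CharBase.Central

/-!
# Ree type groups: the coefficients `c_i(χ)` and the four characters
-/

set_option autoImplicit false

namespace Cfsg.Agent.H92.Rt

open Cfsg Cfsg.Agent Cfsg.Agent.CharBase Finset
open scoped ComplexConjugate

section

variable {G : Type*} [Group G] [Fintype G] {t : G} {K : Subgroup G} [Fintype K] {q m : ℕ} {U A : Subgroup K}
  {k s r : K}

theorem cardK_eq (D : RD t K q m U A k s r) : (q : ℂ) * ((q : ℂ) ^ 2 - 1) = 2 * (Nat.card K : ℂ) := by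
  have h1 := D.kd.cardK
  have h2 : 1 ≤ q := le_trans (by norm_num) D.kd.q27
  have h3 : ((Nat.card K * 2 : ℕ) : ℂ) = ((q * (q - 1) * (q + 1) : ℕ) : ℂ) := by rw [h1]
  push_cast [Nat.cast_sub h2] at h3
  linear_combination -h3

theorem qq_ne (D : RD t K q m U A k s r) : (q : ℂ) * ((q : ℂ) ^ 2 - 1) ≠ 0 := by
  rw [cardK_eq D]
  have : (Nat.card K : ℂ) ≠ 0 := by exact_mod_cast Nat.card_pos.ne'
  exact mul_ne_zero two_ne_zero this

/-- Coefficients of a class function `F_φ` -/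
theorem coeff (D : RD t K q m U A k s r) [Fintype A] {θ : A →* ℂ} (h1 : θ ≠ 1) {φ : K → ℂ} (hφ : IsPhi q U A θ φ)
    {F : G → ℂ} (hF : ∀ ψ : G → ℂ, IsClassFunction G ψ →
        classInner F ψ * (Nat.card K : ℂ) = 2 * ∑ y : K, φ y * conj (ψ (t * (y : G)))) {χ : G → ℂ}
    (hχ : IsCharacter G χ) :
    ∃ z w : ℤ, classInner F χ = z ∧ 4 * ∑ y : K, χ (t * (y : G)) * φ y = (z : ℂ) * ((q : ℂ) * ((q : ℂ) ^ 2 - 1)) ∧
      ∑ a : A, χ ((a : K) : G) * θ a⁻¹ = ((z : ℂ) + 2 * w) * (m : ℂ) := by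
  obtain ⟨z, w, hz, hw⟩ := c_int D hχ h1 hφ
  refine ⟨z, w, ?_, hz, hw⟩
  have hK : (Nat.card K : ℂ) ≠ 0 := by exact_mod_cast Nat.card_pos.ne'
  have h2 := hF χ (isClassFunction_of_isCharacter hχ)
  have h3 : 4 * ∑ y : K, φ y * conj (χ (t * (y : G))) = (z : ℂ) * ((q : ℂ) * ((q : ℂ) ^ 2 - 1)) := by
    have h4 := congrArg conj hz
    rw [map_mul, map_sum, map_mul, map_mul, map_sub, map_pow, Complex.conj_natCast, map_one] at h4
    have h5 : conj (4 : ℂ) = 4 := Complex.conj_ofNat 4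
    have h6 : conj ((z : ℤ) : ℂ) = z := map_intCast (starRingEnd ℂ) z
    rw [h5, h6] at h4
    rw [← h4]
    congr 1
    refine Finset.sum_congr rfl fun y _ => ?_
    rw [map_mul, hφ.real y, mul_comm]
  rw [cardK_eq D] at h3
  have h4 : classInner F χ * (Nat.card K : ℂ) = (z : ℂ) * (Nat.card K : ℂ) := by
    rw [h2]; linear_combination h3 / 2
  exact mul_right_cancel₀ hK h4

end

/-- the three characters of `A` and everything about the coefficients -/
theorem exists_coeffs {G : Type*} [Group G] [Fintype G] {t : G} {K : Subgroup G} [Fintype K] {q m : ℕ}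
    {U A : Subgroup K} {k s r : K} {ρ u : G} (D : RR t K q m U A k s r ρ u)
    (hne : ¬ ∀ a ∈ A, ρ * (a : G) * ρ⁻¹ = (a : G)) [Fintype (IrrCharacter G)] :
    ∃ (θ : Fin 3 → (A →* ℂ)) (φ : Fin 3 → (K → ℂ)) (c : Fin 3 → IrrCharacter G → ℤ),
      (∀ i, θ i ≠ 1) ∧ (∀ i, IsPhi q U A (θ i) (φ i)) ∧
      (∀ i j, i ≠ j → θ i ≠ θ j ∧ ∃ a, θ i a ≠ θ j a⁻¹) ∧
      (∀ i (χ : IrrCharacter G), 4 * ∑ y : K, (χ : G → ℂ) (t * (y : G)) * φ i y = (c i χ : ℂ) * ((q : ℂ) * ((q : ℂ) ^ 2 - 1))) ∧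
      (∀ i j, ∑ χ, c i χ * c j χ = if i = j then 4 else 0) ∧
      (∀ i j χ, (2 : ℤ) ∣ c i χ - c j χ) ∧
      (∀ i (g : G), Odd (orderOf g) → ∑ χ : IrrCharacter G, (c i χ : ℂ) * (χ : G → ℂ) g = 0) ∧
      (∀ i (y : K), Odd (orderOf y) → ∑ χ : IrrCharacter G, (c i χ : ℂ) * (χ : G → ℂ) (t * (y : G)) = 4 * φ i y) := by
  classical
  have : Fintype A := Fintype.ofFinite A
  have hD := D.rd
  have hkd := D.rd.kd
  -- the automorphism
  choose f hfA hf using D.rA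
  let α0 : A → A := fun a => ⟨f a a.2, hfA a a.2⟩
  have hα0 : ∀ a : A, (((α0 a : A) : K) : G) = ρ * ((a : K) : G) * ρ⁻¹ := fun a => (hf a a.2).symm
  have hρ3 : ρ * (ρ * ρ) = 1 := by have := D.rho3; rw [pow_succ, pow_two, mul_assoc] at this; exact this
  have hρ3' : ρ⁻¹ * (ρ⁻¹ * ρ⁻¹) = 1 := by
    rw [← mul_inv_rev, ← mul_inv_rev, mul_assoc, hρ3, inv_one]
  have hα3 : ∀ a, α0 (α0 (α0 a)) = a := by
    intro a
    apply Subtype.ext
    apply Subtype.ext
    rw [hα0, hα0, hα0]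
    calc ρ * (ρ * (ρ * ((a : K) : G) * ρ⁻¹) * ρ⁻¹) * ρ⁻¹ = (ρ * (ρ * ρ)) * ((a : K) : G) * (ρ⁻¹ * (ρ⁻¹ * ρ⁻¹)) := by
          group
      _ = ((a : K) : G) := by rw [hρ3, hρ3', one_mul, mul_one]
  let α : A ≃* A :=
    { toFun := α0
      invFun := fun a => α0 (α0 a)
      left_inv := fun a => hα3 a
      right_inv := fun a => hα3 a
      map_mul' := fun a b => by
        apply Subtype.ext
        apply Subtype.ext
        have h1 : (((α0 a * α0 b : A) : K) : G) = (((α0 a : A) : K) : G) * (((α0 b : A) : K) : G) := rfl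
        have h2 : (((a * b : A) : K) : G) = ((a : K) : G) * ((b : K) : G) := rfl
        rw [h1, hα0, hα0, hα0, h2]
        group }
  have hαv : ∀ a : A, (((α a : A) : K) : G) = ρ * ((a : K) : G) * ρ⁻¹ := hα0
  have : IsCyclic A := hkd.Acyc
  obtain ⟨θ, hθ1, hθne, hθinv, hθα, hθα2⟩ := exists_theta α hα3 (fun h => hne fun a ha => by
    have := hαv ⟨a, ha⟩
    rw [h ⟨a, ha⟩] at this
    exact this.symm)
  choose φ hφ using fun i => exists_phi hkd (θ i)
  choose F hFcl hFt hFne hFodd hFin using fun i => exists_F hD.t1 hD.t2 hD.tK hD.cent (φ i) (hφ i).cl (hφ i).sup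
  choose c w hc hcK hcA using fun i (χ : IrrCharacter G) =>
    coeff hD (hθ1 i) (hφ i) (hFin i) (irr_isCharacter χ)
  have hK : (Nat.card K : ℂ) ≠ 0 := by exact_mod_cast Nat.card_pos.ne'
  have hm : (m : ℂ) ≠ 0 := by
    have := hkd.qm
    have h2 := hkd.q27
    have : m ≠ 0 := by rintro rfl; omega
    exact_mod_cast this
  refine ⟨θ, φ, c, hθ1, hφ, fun i j hij => ⟨hθne i j hij, hθinv i j hij⟩, hcK, ?_, ?_, ?_, ?_⟩
  · -- orthogonality
    intro i j
    have h1 : classInner (F i) (F j) = ∑ χ : IrrCharacter G, (c i χ : ℂ) * (c j χ : ℂ) := by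
      rw [classInner_eq_sum (hFcl i)]
      refine Finset.sum_congr rfl fun χ _ => ?_
      rw [hc i χ, ← classInner_conj_symm, hc j χ, map_intCast (starRingEnd ℂ)]
    have h2 := hFin i (F j) (hFcl j)
    have h3 : ∀ y : K, φ i y * conj (F j (t * (y : G))) = 4 * (φ i y * φ j y) := by
      intro y
      by_cases hy : Odd (orderOf y)
      · rw [hFt j y hy, map_mul, (hφ j).real]
        have h5 : conj (4 : ℂ) = 4 := Complex.conj_ofNat 4
        rw [h5]; ring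
      · rw [(hφ i).sup y hy]; ring
    rw [Finset.sum_congr rfl fun y _ => h3 y, ← Finset.mul_sum] at h2
    have h4 : ((∑ χ, c i χ * c j χ : ℤ) : ℂ) * (Nat.card K : ℂ) = 2 * (4 * ∑ y : K, φ i y * φ j y) := by
      rw [← h2, h1]; push_cast; rfl
    by_cases hij : i = j
    · subst hij
      rw [if_pos rfl]
      rw [phi_self hkd (hθ1 i) (hφ i), cardK_eq hD] at h4
      have h5 : ((∑ χ, c i χ * c i χ : ℤ) : ℂ) * (Nat.card K : ℂ) = 4 * (Nat.card K : ℂ) := by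
        rw [h4]; ring
      have h6 := mul_right_cancel₀ hK h5
      exact_mod_cast h6
    · rw [if_neg hij]
      rw [phi_phi hkd (hθ1 i) (hθ1 j) (hφ i) (hφ j) (hθne i j hij) (hθinv i j hij)] at h4
      have h5 : ((∑ χ, c i χ * c j χ : ℤ) : ℂ) * (Nat.card K : ℂ) = 0 * (Nat.card K : ℂ) := by
        rw [h4]; ring
      have h6 := mul_right_cancel₀ hK h5
      exact_mod_cast h6
  · -- parity
    have hχα : ∀ (χ : IrrCharacter G) (a : A), (χ : G → ℂ) (((α a : A) : K) : G) = (χ : G → ℂ) ((a : K) : G) := by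
      intro χ a
      rw [hαv]
      exact irr_isClassFunction χ _ _
    have h0 : ∀ i (χ : IrrCharacter G), ∑ a : A, (χ : G → ℂ) ((a : K) : G) * θ i a⁻¹ =
        ∑ a : A, (χ : G → ℂ) ((a : K) : G) * θ 0 a⁻¹ := by
      intro i χ
      fin_cases i
      · rfl
      · show ∑ a : A, (χ : G → ℂ) ((a : K) : G) * θ 1 a⁻¹ = _
        rw [← Equiv.sum_comp α.toEquiv fun a : A => (χ : G → ℂ) ((a : K) : G) * θ 0 a⁻¹]
        refine Finset.sum_congr rfl fun a _ => ?_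
        show (χ : G → ℂ) ((a : K) : G) * θ 1 a⁻¹ = (χ : G → ℂ) (((α a : A) : K) : G) * θ 0 (α a)⁻¹
        rw [hχα, hθα, map_inv α]
      · show ∑ a : A, (χ : G → ℂ) ((a : K) : G) * θ 2 a⁻¹ = _
        rw [← Equiv.sum_comp (α.trans α).toEquiv fun a : A => (χ : G → ℂ) ((a : K) : G) * θ 0 a⁻¹]
        refine Finset.sum_congr rfl fun a _ => ?_
        show (χ : G → ℂ) ((a : K) : G) * θ 2 a⁻¹ = (χ : G → ℂ) (((α (α a) : A) : K) : G) * θ 0 (α (α a))⁻¹
        rw [hχα, hχα, hθα2, map_inv α, map_inv α]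
    intro i j χ
    have h1 := hcA i χ
    have h2 := hcA j χ
    rw [h0 i χ] at h1
    rw [h0 j χ, h1] at h2
    have h3 := mul_right_cancel₀ hm h2
    have h4 : c i χ + 2 * w i χ = c j χ + 2 * w j χ := by exact_mod_cast h3
    exact ⟨w j χ - w i χ, by linarith⟩
  · intro i g hg
    have h1 := classFun_apply_eq_sum (hFcl i) g
    rw [hFodd i g hg] at h1
    rw [h1]
    exact Finset.sum_congr rfl fun χ _ => by rw [hc i χ]
  · intro i y hy
    have h1 := classFun_apply_eq_sum (hFcl i) (t * (y : G))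
    rw [hFt i y hy] at h1
    rw [h1]
    exact Finset.sum_congr rfl fun χ _ => by rw [hc i χ]

end Cfsg.Agent.H92.Rt
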