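import Cfsg.Agent.H92.RtC4b
import Cfsg.Agent.Char.FrobTI

/-!
# Ree type groups: the four characters
-/

set_option autoImplicit false

namespace Cfsg.Agent.H92.Rt

open Cfsg Cfsg.Agent Cfsg.Agent.CharBase Finset
open scoped ComplexConjugate

/-- everything about the four characters before the analysis of `h` -/
theorem exists_four0 {G : Type*} [Group G] [Fintype G] {t : G} {K : Subgroup G} [Fintype K] {q m : ℕ}
    {U A : Subgroup K} {k s r : K} {ρ u : G} (D : RR t K q m U A k s r ρ u)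
    (hne : ¬ ∀ a ∈ A, ρ * (a : G) * ρ⁻¹ = (a : G)) :
    ∃ (θ : Fin 3 → (A →* ℂ)) (φ : Fin 3 → (K → ℂ)) (X : Fin 4 → IrrCharacter G) (ε : ℤ),
      (ε = 1 ∨ ε = -1) ∧ (∀ i, θ i ≠ 1) ∧ (∀ i, IsPhi q U A (θ i) (φ i)) ∧
      (∀ i j, i ≠ j → θ i ≠ θ j ∧ ∃ a, θ i a ≠ θ j a⁻¹) ∧
      (∀ i j, 4 * ∑ y : K, (X j : G → ℂ) (t * (y : G)) * φ i y =
        ((ε * sg i j : ℤ) : ℂ) * ((q : ℂ) * ((q : ℂ) ^ 2 - 1))) ∧
      (∀ g : G, Odd (orderOf g) → ∀ i j, (X i : G → ℂ) g = (X j : G → ℂ) g) ∧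
      (∀ i (y : K), Odd (orderOf y) →
        ∑ j, ((ε * sg i j : ℤ) : ℂ) * (X j : G → ℂ) (t * (y : G)) = 4 * φ i y) ∧
      (∀ j g, conj ((X j : G → ℂ) g) = (X j : G → ℂ) g) := by
  classical
  have : Fintype (IrrCharacter G) := Fintype.ofFinite _
  obtain ⟨θ, φ, c, hθ1, hφ, hθθ, hcK, hco, hcp, hcodd, hct⟩ := exists_coeffs D hne
  choose d hd using fun χ : IrrCharacter G => exists_nat_degree (irr_isCharacter χ)
  have hd0 : ∀ χ, 0 < d χ := by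
    intro χ
    rcases Nat.eq_zero_or_pos (d χ) with h | h
    · exfalso
      have h2 := hd χ
      rw [h, Nat.cast_zero] at h2
      exact irr_one_ne_zero χ.2 h2
    · exact h
  have hcd : ∀ i, ∑ χ, c i χ * (d χ : ℤ) = 0 := by
    intro i
    have h1 := hcodd i 1 (by rw [orderOf_one]; exact odd_one)
    have h2 : ((∑ χ, c i χ * (d χ : ℤ) : ℤ) : ℂ) = 0 := by
      rw [← h1]; push_cast
      exact Finset.sum_congr rfl fun χ _ => by rw [hd χ]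
    exact_mod_cast h2
  obtain ⟨X, ε, hε, hinj, hXc, hX0, _, huniq, hv⟩ := four_pattern c hco hcp d hd0 hcd
  have hqq := qq_ne D.rd
  refine ⟨θ, φ, X, ε, hε, hθ1, hφ, hθθ, ?_, ?_, ?_, ?_⟩
  · intro i j
    rw [hcK i (X j), hXc i j]
  · intro g hg i j
    exact hv (fun χ => (χ : G → ℂ) g) (fun i => hcodd i g hg) i j
  · intro i y hy
    rw [← hct i y hy]
    refine Fintype.sum_of_injective X hinj _ _ ?_ ?_
    · intro χ hχ
      rw [hX0 i χ (fun j hj => hχ ⟨j, hj⟩)]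
      simp
    · intro j
      show _ = (c i (X j) : ℂ) * _
      rw [hXc i j]
  · intro j g
    let χ' : IrrCharacter G := ⟨fun g => conj ((X j : G → ℂ) g), isIrrCharacter_conj (X j).2⟩
    have h1 : χ' = X j := by
      refine huniq j χ' fun i => ?_
      have h2 := hcK i χ'
      have h3 := congrArg conj (hcK i (X j))
      rw [map_mul, map_sum, map_mul, map_mul, map_sub, map_pow, Complex.conj_natCast, map_one,
        map_intCast (starRingEnd ℂ), Complex.conj_ofNat] at h3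
      have h4 : ∀ y : K, conj ((X j : G → ℂ) (t * (y : G)) * φ i y) = (χ' : G → ℂ) (t * (y : G)) * φ i y := by
        intro y
        rw [map_mul, (hφ i).real]
      rw [Finset.sum_congr rfl fun y _ => h4 y, h2] at h3
      have h5 := mul_right_cancel₀ hqq h3
      exact_mod_cast h5
    have h2 : (χ' : G → ℂ) g = (X j : G → ℂ) g := by rw [h1]
    exact h2

/-- real class functions `h` with integral multiplicities -/
theorem h_perp {K : Type*} [Group K] [Fintype K] {q : ℕ} (h φ : K → ℂ) (n : ℤ)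
    (hq : (27 : ℝ) ≤ q)
    (hn : 4 * ∑ y : K, h y * φ y = (n : ℂ) * ((q : ℂ) * ((q : ℂ) ^ 2 - 1)))
    (hnorm : 4 * ∑ y : K, ‖h y‖ ^ 2 < (q : ℝ) * ((q : ℝ) ^ 2 - 1))
    (hreal : ∀ y, conj (φ y) = φ y) (hφφ : 4 * ∑ y : K, φ y * φ y = (q : ℂ) * ((q : ℂ) ^ 2 - 1)) :
    ∑ y : K, h y * φ y = 0 := by
  set Q : ℝ := (q : ℝ) * ((q : ℝ) ^ 2 - 1) with hQ
  have hQ0 : 0 < Q := by rw [hQ]; nlinarith
  have hQC : (q : ℂ) * ((q : ℂ) ^ 2 - 1) = (Q : ℂ) := by rw [hQ]; push_cast; ring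
  have h1 : 4 * ∑ y : K, ‖φ y‖ ^ 2 = Q := by
    have h2 : ∀ y, φ y * φ y = ((‖φ y‖ ^ 2 : ℝ) : ℂ) := by
      intro y
      have h3 := Complex.mul_conj (φ y)
      rw [hreal y, Complex.normSq_eq_norm_sq] at h3
      exact h3
    rw [Finset.sum_congr rfl fun y _ => h2 y, hQC] at hφφ
    have h3 : ((4 * ∑ y : K, ‖φ y‖ ^ 2 : ℝ) : ℂ) = (Q : ℂ) := by
      rw [← hφφ]; push_cast; rfl
    exact_mod_cast h3
  have h2 : (∑ y : K, ‖h y‖ * ‖φ y‖) ^ 2 ≤ (∑ y : K, ‖h y‖ ^ 2) * ∑ y : K, ‖φ y‖ ^ 2 :=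
    Finset.sum_mul_sq_le_sq_mul_sq _ _ _
  have h3 : ‖∑ y : K, h y * φ y‖ ≤ ∑ y : K, ‖h y‖ * ‖φ y‖ := by
    refine (norm_sum_le _ _).trans (le_of_eq ?_)
    exact Finset.sum_congr rfl fun y _ => norm_mul _ _
  have h4 : ‖∑ y : K, h y * φ y‖ * 4 = |(n : ℝ)| * Q := by
    have h5 := congrArg norm hn
    rw [norm_mul, norm_mul, hQC, Complex.norm_real, Real.norm_of_nonneg hQ0.le, Complex.norm_intCast] at h5
    have h6 : ‖(4 : ℂ)‖ = 4 := by simp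
    rw [h6] at h5
    linarith
  have h5 : 0 ≤ ‖∑ y : K, h y * φ y‖ := norm_nonneg _
  have h6 : (|(n : ℝ)| * Q) ^ 2 < Q ^ 2 := by
    calc (|(n : ℝ)| * Q) ^ 2 = 16 * ‖∑ y : K, h y * φ y‖ ^ 2 := by rw [← h4]; ring
      _ ≤ 16 * (∑ y : K, ‖h y‖ * ‖φ y‖) ^ 2 := by
          have := pow_le_pow_left₀ h5 h3 2
          linarith
      _ ≤ 16 * ((∑ y : K, ‖h y‖ ^ 2) * ∑ y : K, ‖φ y‖ ^ 2) := by linarith
      _ = (4 * ∑ y : K, ‖h y‖ ^ 2) * (4 * ∑ y : K, ‖φ y‖ ^ 2) := by ring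
      _ = (4 * ∑ y : K, ‖h y‖ ^ 2) * Q := by rw [h1]
      _ < Q * Q := mul_lt_mul_of_pos_right hnorm hQ0
      _ = Q ^ 2 := by ring
  have h7 : |(n : ℝ)| * Q < Q := lt_of_pow_lt_pow_left₀ 2 hQ0.le h6
  have h8 : |(n : ℝ)| < 1 := by
    by_contra hc
    push Not at hc
    nlinarith
  have h9 : n = 0 := by
    have : |n| < 1 := by exact_mod_cast h8
    exact Int.abs_lt_one_iff.mp this
  rw [h9] at hn
  simpa using hn

end Cfsg.Agent.H92.Rt
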