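import Cfsg.Agent.H92.RtC4
import Cfsg.Agent.H39.RtP3c
import Cfsg.Agent.H35.RtQ
import Cfsg.Agent.H96.RtR
import Cfsg.Agent.H23.RtP2F

/-!
# A group of Ree type involves `S₃`
-/

set_option autoImplicit false

namespace Cfsg.Agent.H92.Rt

universe u

/-- [P3] -/
theorem case2 {G : Type u} [Group G] [Finite G] {t : G} {K : Subgroup G} {q m : ℕ} {U A : Subgroup K} {k s r : K}
    {ρ u : G} (D : RR t K q m U A k s r ρ u) (h : ∀ a ∈ A, ρ * (a : G) * ρ⁻¹ = (a : G)) : False :=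
  H39.RtP3.case2_of D h (fun V a b c d e => H35.RtQ.lemmaQ V a b c d e) (fun x hx hx1 =>
    ⟨(H34.Rt.c3 D.rd x hx hx1).1, fun v h1 h2 h3 => ((H34.Rt.c3 D.rd x hx hx1).2.2 v h1 h2 h3).1⟩)

/-- A group of Ree type involves `S₃`. -/
theorem ree_s3 {G : Type*} [Group G] [Finite G] (hR : Cfsg.IsReeType G) :
    Cfsg.Involves (Equiv.Perm (Fin 3)) G := by
  by_contra h3
  obtain ⟨t, K, q, m, U, A, k, s, r, D⟩ := H23.RtP2.rd_of_ree hR h3
  obtain ⟨ρ, u, R⟩ := H96.Rt.rr_of_rd D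
  by_cases h : ∀ a ∈ A, ρ * (a : G) * ρ⁻¹ = (a : G)
  · exact case2 R h
  · exact case1 R h

end Cfsg.Agent.H92.Rt
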