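import Cfsg.Agent.H92.Majorana

set_option autoImplicit false

namespace Cfsg.Agent.H92.Sak

open Cfsg.Axial Cfsg.Agent.H92.Maj

variable {V : Type*} [AddCommGroup V] [Module ℝ V]
variable {mul : V →ₗ[ℝ] V →ₗ[ℝ] V} {B : LinearMap.BilinForm ℝ V} {μ : V ≃ₗ[ℝ] V} {a : V}

/-- the full decomposition of `b` with respect to an axis of length one. -/
theorem decomp' (hV : IsMajoranaAmbient mul B) (h : IsMajoranaPair mul B μ a) (hn : B a a = 1) (b : V) :
    ∃ (x y z : V), mul a x = 0 ∧ mul a y = (1 / 4 : ℝ) • y ∧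
      mul a z = (1 / 32 : ℝ) • z ∧ b = B a b • a + x + y + z ∧ μ b = B a b • a + x + y - z := by
  obtain ⟨c, x, y, z, hx, hy, hz, hv⟩ := decomp h b
  have o1 : B a x = 0 := orth hV (show (1 : ℝ) ≠ 0 by norm_num) (by rw [idem h, one_smul]) (by rw [hx, zero_smul])
  have o2 : B a y = 0 := orth hV (show (1 : ℝ) ≠ 1 / 4 by norm_num) (by rw [idem h, one_smul]) hy
  have o3 : B a z = 0 := orth hV (show (1 : ℝ) ≠ 1 / 32 by norm_num) (by rw [idem h, one_smul]) hz
  have hc : B a b = c := by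
    rw [hv]
    simp only [map_add, map_smul, smul_eq_mul, hn, o1, o2, o3]
    ring
  refine ⟨x, y, z, hx, hy, hz, by rw [hc]; exact hv, ?_⟩
  rw [hc, hv]
  simp only [map_add, map_smul, fix_self h, fix0 h hx, fixq h hy, negt h hz]
  abel

/-- `a (a b)` type formulas. -/
theorem basic (hV : IsMajoranaAmbient mul B) (h : IsMajoranaPair mul B μ a) (hn : B a a = 1) (b : V) :
    mul a (μ b) = (mul a b - (1 / 32 : ℝ) • (a + b)) + (1 / 32 : ℝ) • (a + μ b) ∧
    mul a (mul a b - (1 / 32 : ℝ) • (a + b)) =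
      (7 / 32 : ℝ) • (mul a b - (1 / 32 : ℝ) • (a + b)) + (3 * B a b / 4 - 25 / 1024) • a
        + (7 / 2048 : ℝ) • (b + μ b) := by
  obtain ⟨x, y, z, hx, hy, hz, hv, hv'⟩ := decomp' hV h hn b
  set c := B a b with hc
  rw [hv']
  have h1 : mul a b = c • a + (1 / 4 : ℝ) • y + (1 / 32 : ℝ) • z := by
    rw [hv]
    simp only [map_add, map_smul, idem h, hx, hy, hz]
    module
  constructor
  · rw [h1, hv]
    simp only [map_add, map_sub, map_smul, idem h, hx, hy, hz]
    module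
  · rw [h1, hv]
    simp only [map_add, map_sub, map_smul, idem h, hx, hy, hz]
    module

theorem norm_v (hV : IsMajoranaAmbient mul B) (h : IsMajoranaPair mul B μ a) (hn : B a a = 1) (b : V)
    (hb : mul b b = b) (hbn : B b b = 1) (s : V) (hs : mul a b = s + (1 / 32 : ℝ) • (a + b)) :
    B ((4 : ℝ) • s + (1 / 8 - 4 * B a b) • a + (1 / 16 : ℝ) • (b + μ b))
      ((4 : ℝ) • s + (1 / 8 - 4 * B a b) • a + (1 / 16 : ℝ) • (b + μ b))
      = 4 * (B a b - (B a b) ^ 2 - (1 - B b (μ b)) / 64) := by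
  obtain ⟨x, y, z, hx, hy, hz, hv, hv'⟩ := decomp' hV h hn b
  set c := B a b with hc
  have o1 : B a x = 0 := orth hV (show (1 : ℝ) ≠ 0 by norm_num) (by rw [idem h, one_smul]) (by rw [hx, zero_smul])
  have o2 : B a y = 0 := orth hV (show (1 : ℝ) ≠ 1 / 4 by norm_num) (by rw [idem h, one_smul]) hy
  have o3 : B a z = 0 := orth hV (show (1 : ℝ) ≠ 1 / 32 by norm_num) (by rw [idem h, one_smul]) hz
  have o4 : B x y = 0 := orth hV (show (0 : ℝ) ≠ 1 / 4 by norm_num) (by rw [hx, zero_smul]) hy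
  have o5 : B x z = 0 := orth hV (show (0 : ℝ) ≠ 1 / 32 by norm_num) (by rw [hx, zero_smul]) hz
  have o6 : B y z = 0 := orth hV (show (1 / 4 : ℝ) ≠ 1 / 32 by norm_num) hy hz
  have h1 : mul a b = c • a + (1 / 4 : ℝ) • y + (1 / 32 : ℝ) • z := by
    rw [hv]
    simp only [map_add, map_smul, idem h, hx, hy, hz]
    module
  have hy' : (4 : ℝ) • s + (1 / 8 - 4 * c) • a + (1 / 16 : ℝ) • (b + μ b) = y := by
    have hs' : s = mul a b - (1 / 32 : ℝ) • (a + b) := by rw [hs]; abel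
    rw [hs', h1, hv', hv]
    module
  rw [hy']
  have e1 : B b b = c ^ 2 + B x x + B y y + B z z := by
    rw [hv]
    simp only [map_add, map_smul, LinearMap.add_apply, LinearMap.smul_apply, smul_eq_mul, o1, o2, o3, o4, o5, o6,
      form_symm hV x a, form_symm hV y a, form_symm hV z a, form_symm hV y x, form_symm hV z x,
      form_symm hV z y, hn]
    ring
  have e2 : B b (μ b) = c ^ 2 + B x x + B y y - B z z := by
    rw [hv', hv]
    simp only [map_add, map_sub, map_smul, LinearMap.add_apply, LinearMap.smul_apply, smul_eq_mul, o1, o2, o3, o4, o5, o6,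
      form_symm hV x a, form_symm hV y a, form_symm hV z a, form_symm hV y x, form_symm hV z x,
      form_symm hV z y, hn]
    ring
  have e3 : B (mul a b) b = c ^ 2 + (1 / 4) * B y y + (1 / 32) * B z z := by
    rw [h1]
    conv_lhs => rw [hv]
    simp only [map_add, map_smul, LinearMap.add_apply, LinearMap.smul_apply, smul_eq_mul, o1, o2, o3, o4, o5, o6,
      form_symm hV x a, form_symm hV y a, form_symm hV z a, form_symm hV y x, form_symm hV z x,
      form_symm hV z y, hn]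
    ring
  have e4 : B (mul a b) b = c := by rw [← form_assoc hV, hb]
  rw [hbn] at e1
  linarith

/-- The resurrection computation at one axis. -/
theorem center (hV : IsMajoranaAmbient mul B) (h : IsMajoranaPair mul B μ a) (hn : B a a = 1)
    {b b' c c' s so se : V} {l n : ℝ}
    (hab : mul a b = s + (1 / 32 : ℝ) • (a + b)) (hab' : mul a b' = s + (1 / 32 : ℝ) • (a + b'))
    (hbb' : mul b b' = so + (1 / 32 : ℝ) • (b + b')) (hb : mul b b = b) (hb' : mul b' b' = b')
    (hac : mul a c = se + (1 / 32 : ℝ) • (a + c)) (hac' : mul a c' = se + (1 / 32 : ℝ) • (a + c'))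
    (has : mul a s = (7 / 32 : ℝ) • s + (3 * l / 4 - 25 / 1024) • a + (7 / 2048 : ℝ) • (b + b'))
    (hbs : mul b s = (7 / 32 : ℝ) • s + (3 * l / 4 - 25 / 1024) • b + (7 / 2048 : ℝ) • (a + c))
    (hbs' : mul b' s = (7 / 32 : ℝ) • s + (3 * l / 4 - 25 / 1024) • b' + (7 / 2048 : ℝ) • (a + c'))
    (hvv : B ((4 : ℝ) • s + (1 / 8 - 4 * l) • a + (1 / 16 : ℝ) • (b + b'))
      ((4 : ℝ) • s + (1 / 8 - 4 * l) • a + (1 / 16 : ℝ) • (b + b')) = 4 * (l - l ^ 2 - (1 - n) / 64)) :
    mul a so = (l / 6 - 19 / 3072) • (b + b') + (7 / 6144 : ℝ) • (c + c')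
        + (-(32 / 3) * l ^ 2 + 5 / 3 * l - n / 24 - 127 / 3072) • a + (32 / 3 * l - 19 / 48) • s
        + (7 / 96 : ℝ) • se ∧
    mul s s = (49 / 768 * l - 245 / 196608) • (b + b') + (49 / 196608 : ℝ) • (c + c')
        + (7 / 6 * l ^ 2 - 7 / 384 * l + 7 / 1536 * n - 7 / 98304) • a
        + (-(5 / 12) * l - 13 / 1536) • s - (7 / 1536 : ℝ) • se + (7 / 2048 : ℝ) • so := by
  have ia := idem h
  have hba : mul b a = s + (1 / 32 : ℝ) • (a + b) := by rw [comm hV, hab]
  have hba' : mul b' a = s + (1 / 32 : ℝ) • (a + b') := by rw [comm hV, hab']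
  have hbb'' : mul b' b = so + (1 / 32 : ℝ) • (b + b') := by rw [comm hV, hbb']
  have hsa : mul s a = (7 / 32 : ℝ) • s + (3 * l / 4 - 25 / 1024) • a + (7 / 2048 : ℝ) • (b + b') := by
    rw [comm hV, has]
  have hsb : mul s b = (7 / 32 : ℝ) • s + (3 * l / 4 - 25 / 1024) • b + (7 / 2048 : ℝ) • (a + c) := by
    rw [comm hV, hbs]
  have hsb' : mul s b' = (7 / 32 : ℝ) • s + (3 * l / 4 - 25 / 1024) • b' + (7 / 2048 : ℝ) • (a + c') := by
    rw [comm hV, hbs']
  set u : V := (-4 : ℝ) • s + (3 * l - 1 / 8) • a + (7 / 16 : ℝ) • (b + b') with hu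
  set v : V := (4 : ℝ) • s + (1 / 8 - 4 * l) • a + (1 / 16 : ℝ) • (b + b') with hv
  have hau : mul a u = 0 := by
    rw [hu]
    simp only [map_add, map_smul, ia, has, hab, hab']
    module
  have hav : mul a v = (1 / 4 : ℝ) • v := by
    rw [hv]
    simp only [map_add, map_smul, ia, has, hab, hab']
    module
  have F00 := fus00 h hau hau
  have F0q := fus0q h hau hav
  obtain ⟨d, w, hw, hd⟩ := fusqq h hav hav
  have hdv : d = l - l ^ 2 - (1 - n) / 64 := by
    have o : B a w = 0 := orth hV (show (1 : ℝ) ≠ 0 by norm_num) (by rw [ia, one_smul]) (by rw [hw, zero_smul])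
    have e1 : B a (mul v v) = d := by
      rw [hd]; simp only [map_add, map_smul, smul_eq_mul, hn, o]; ring
    have e2 : B a (mul v v) = (1 / 4) * B v v := by
      rw [form_assoc hV, hav]; simp
    rw [e1, hvv] at e2
    linarith
  have Fqq : mul a (mul v v) = (l - l ^ 2 - (1 - n) / 64) • a := by
    rw [hd, map_add, map_smul, ia, hw, hdv, add_zero]
  -- the two products
  have hvmu : v - u = (8 : ℝ) • s + (1 / 4 - 7 * l) • a - (3 / 8 : ℝ) • (b + b') := by
    rw [hu, hv]; module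
  have hvpu : v + u = (1 / 2 : ℝ) • (b + b') - l • a := by
    rw [hu, hv]; module
  have huv : mul v u = mul u v := comm hV _ _
  have P1 : mul (v - u) (v + u) = mul v v - mul u u := by
    simp only [map_add, map_sub, LinearMap.sub_apply, huv]; abel
  have P2 : mul u (v + u) = mul u v + mul u u := by
    simp only [map_add]
  have Q1 : mul (v - u) (v + u) =
      (4 : ℝ) • ((7 / 16 : ℝ) • s + (3 * l / 4 - 25 / 1024) • (b + b') + (7 / 2048 : ℝ) • ((2 : ℝ) • a + c + c'))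
      - (8 * l) • ((7 / 32 : ℝ) • s + (3 * l / 4 - 25 / 1024) • a + (7 / 2048 : ℝ) • (b + b'))
      + ((1 / 2) * (1 / 4 - 7 * l) + 3 / 8 * l) • ((2 : ℝ) • s + (1 / 16 : ℝ) • a + (1 / 32 : ℝ) • (b + b'))
      - (l * (1 / 4 - 7 * l)) • a
      - (3 / 16 : ℝ) • ((17 / 16 : ℝ) • (b + b') + (2 : ℝ) • so) := by
    rw [hvmu, hvpu]
    simp only [map_add, map_sub, map_smul, LinearMap.add_apply, LinearMap.sub_apply, LinearMap.smul_apply,
      ia, hab, hab', hba, hba', hbb', hbb'', hb, hb', hsa, hsb, hsb']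
    module
  have R1 : mul a (mul (v - u) (v + u)) = (l - l ^ 2 - (1 - n) / 64) • a := by
    rw [P1, map_sub, Fqq, F00, sub_zero]
  rw [Q1] at R1
  simp only [map_add, map_sub, map_smul, ia, has, hab, hab', hac, hac'] at R1
  have hso : mul a so = (l / 6 - 19 / 3072) • (b + b') + (7 / 6144 : ℝ) • (c + c')
        + (-(32 / 3) * l ^ 2 + 5 / 3 * l - n / 24 - 127 / 3072) • a + (32 / 3 * l - 19 / 48) • s
        + (7 / 96 : ℝ) • se := by
    linear_combination (norm := module) (-(8 / 3) : ℝ) • R1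
  refine ⟨hso, ?_⟩
  have Q2 : mul u (v + u) = (1 / 2 : ℝ) • (
      (-4 : ℝ) • ((7 / 16 : ℝ) • s + (3 * l / 4 - 25 / 1024) • (b + b') + (7 / 2048 : ℝ) • ((2 : ℝ) • a + c + c'))
      + (3 * l - 1 / 8) • ((2 : ℝ) • s + (1 / 16 : ℝ) • a + (1 / 32 : ℝ) • (b + b'))
      + (7 / 16 : ℝ) • ((17 / 16 : ℝ) • (b + b') + (2 : ℝ) • so)) := by
    have hua : mul u a = 0 := by rw [comm hV, hau]
    rw [hvpu, map_sub, map_smul, map_smul, hua, smul_zero, sub_zero, hu]
    simp only [map_add, map_smul, LinearMap.add_apply, LinearMap.smul_apply,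
      hab, hab', hbb', hbb'', hb, hb', hsb, hsb']
    module
  have R2 : mul a (mul u (v + u)) = (1 / 4 : ℝ) • mul u v := by
    rw [P2, map_add, F0q, F00, add_zero]
  rw [Q2] at R2
  simp only [map_add, map_smul, ia, has, hab, hab', hac, hac', hso] at R2
  have Q3 : mul u v = (-16 : ℝ) • mul s s
      + (-(1 / 2) + 16 * l + 4 * (3 * l - 1 / 8)) • ((7 / 32 : ℝ) • s + (3 * l / 4 - 25 / 1024) • a + (7 / 2048 : ℝ) • (b + b'))
      + (-(1 / 4) + 7 / 4 : ℝ) • ((7 / 16 : ℝ) • s + (3 * l / 4 - 25 / 1024) • (b + b') + (7 / 2048 : ℝ) • ((2 : ℝ) • a + c + c'))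
      + ((3 * l - 1 / 8) * (1 / 8 - 4 * l)) • a
      + ((3 * l - 1 / 8) / 16 + 7 / 16 * (1 / 8 - 4 * l)) • ((2 : ℝ) • s + (1 / 16 : ℝ) • a + (1 / 32 : ℝ) • (b + b'))
      + (7 / 256 : ℝ) • ((17 / 16 : ℝ) • (b + b') + (2 : ℝ) • so) := by
    rw [hu, hv]
    simp only [map_add, map_smul, LinearMap.add_apply, LinearMap.smul_apply,
      ia, has, hab, hab', hba, hba', hbb', hbb'', hb, hb', hsa, hsb, hsb', hbs, hbs']
    module
  rw [Q3] at R2
  linear_combination (norm := module) (1 / 4 : ℝ) • R2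

end Cfsg.Agent.H92.Sak
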