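import Cfsg.Agent.H92.SakumaSeq

set_option autoImplicit false

namespace Cfsg.Agent.H92.Sak

open Cfsg.Axial Cfsg.Agent.H92.Maj

variable {V : Type*} [AddCommGroup V] [Module ℝ V]
variable {mul : V →ₗ[ℝ] V →ₗ[ℝ] V} {B : LinearMap.BilinForm ℝ V}

/-- All scalar consequences of the key relation that we need. -/
theorem scalars (hV : IsMajoranaAmbient mul B) (D : DihSeq mul B) {l m n p qe qo u w : ℝ}
    (hl : B (D.a 0) (D.a 1) = l) (hm : B (D.a 0) (D.a 2) = m) (hn : B (D.a (-1)) (D.a 1) = n)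
    (hp : B (D.a 0) (D.a 3) = p) (hqe : B (D.a 0) (D.a 4) = qe) (hqo : B (D.a (-1)) (D.a 3) = qo)
    (hu : B (D.a (-2)) (D.a 3) = u) (hw : B (D.a (-2)) (D.a 4) = w) :
    m = n ∧
    p = (-32768 * l ^ 3 - 1920 * l * m + 36864 * l ^ 2 - 2169 * l - 33 * m + 33) / 7 ∧
    qe = -((32768/7)*l^2*m + (-32768/7)*l^3 + (-2432/7)*l*m + (256)*l*p + (2304/7)*l^2
      + (128/7)*m^2 + (-1622/7)*l + (-177/7)*m + (-6)*p + 6) ∧
    u = (32768/7)*l^2*m + (-32768/7)*l^2*p + (-2304/7)*l*m + (2304/7)*l*p + (-256)*l*qe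
      + (256)*l^2 + (-128/7)*m*p + (128/7)*m^2 + (24)*l + (-177/7)*m + (-33/7)*p + (6)*qe + 1 ∧
    w = -((-32768/7)*l^2*p + (32768/7)*l^2*qe + (-256)*l*m + (2304/7)*l*p + (-2304/7)*l*qe
      + (256)*l*u + (-128/7)*m*p + (128/7)*m*qe + (29)*l + (-24)*m + (-33/7)*p + (33/7)*qe + (-6)*u) ∧
    8192 * l ^ 4 + 160 * l ^ 2 * m - 9088 * l ^ 3 + 139 / 4 * l * m + 720 * l ^ 2 + m ^ 2 / 2
      - 75 / 4 * l - 167 / 256 * m + 39 / 256 = 0 ∧
    -12079595520 * l ^ 5 - 47185920 * l ^ 3 * m + 12740198400 * l ^ 4 - 108380160 * l ^ 2 * m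
      - 491028480 * l ^ 3 + 1143360 * l * m - 16035840 * l ^ 2 + 884160 * l + 8775 * m - 8775 = 0 := by
  obtain ⟨R, K⟩ := key_rel hV D hl hm hn
  have N := D.norm
  have sy := D.ip_symm hV
  -- λ₁
  have l10 : B (D.a (-1)) (D.a 0) = l := by
    have := D.ip_refl 0 0 1; norm_num at this; rw [sy, this, hl]
  have l12 : B (D.a 1) (D.a 2) = l := by
    have := D.ip_refl 1 1 0; norm_num at this; rw [this, sy, hl]
  have l23 : B (D.a 2) (D.a 3) = l := by
    have := D.ip_refl 2 2 1; norm_num at this; rw [this, sy, l12]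
  have l34 : B (D.a 3) (D.a 4) = l := by
    have := D.ip_refl 3 3 2; norm_num at this; rw [this, sy, l23]
  have l21 : B (D.a (-2)) (D.a (-1)) = l := by
    have := D.ip_refl (-1) (-1) 0; norm_num at this; rw [sy, this, l10]
  -- λ₂
  have m20 : B (D.a (-2)) (D.a 0) = m := by
    have := D.ip_refl 0 0 2; norm_num at this; rw [sy, this, hm]
  have m24 : B (D.a 2) (D.a 4) = m := by
    have := D.ip_refl 2 2 0; norm_num at this; rw [this, sy, hm]
  have n13 : B (D.a 1) (D.a 3) = n := by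
    have := D.ip_refl 1 1 (-1); norm_num at this; rw [this, sy, hn]
  -- λ₃
  have p21 : B (D.a (-2)) (D.a 1) = p := by
    have := D.ip_refl (-1) 0 (-3)
    have h2 := D.ip_refl 0 0 3
    norm_num at this h2
    rw [← hp, ← h2, ← this]
  have p12 : B (D.a (-1)) (D.a 2) = p := by
    have := D.ip_refl 1 0 3; norm_num at this; rw [sy, this, hp]
  have p14 : B (D.a 1) (D.a 4) = p := by
    have := D.ip_refl 1 1 (-2); norm_num at this; rw [this, sy, p21]
  -- λ₄
  have q22 : B (D.a (-2)) (D.a 2) = qe := by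
    have := D.ip_refl 1 0 4; norm_num at this; rw [sy, this, hqe]
  -- λ₅
  have u14 : B (D.a (-1)) (D.a 4) = u := by
    have := D.ip_refl 1 (-2) 3; norm_num at this; rw [sy, this, hu]
  -- σ₁
  have s01 : D.S (-1) 0 = D.S 0 1 := by
    have := D.S_next hV (-1) 1; norm_num at this; exact this.symm
  have s12 : D.S 1 2 = D.S 0 1 := by
    have := D.S_next hV 0 1; norm_num at this; exact this
  have s23 : D.S 2 3 = D.S 0 1 := by
    have := D.S_next hV 1 1; norm_num at this; rw [this, s12]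
  have s34 : D.S 3 4 = D.S 0 1 := by
    have := D.S_next hV 2 1; norm_num at this; rw [this, s23]
  have s21 : D.S (-2) (-1) = D.S 0 1 := by
    have := D.S_next hV (-2) 1; norm_num at this; rw [← this, s01]
  have e02 : D.S (-2) 0 = D.S 0 2 := by
    have := D.S_next hV (-2) 2; norm_num at this; exact this.symm
  have e24 : D.S 2 4 = D.S 0 2 := by
    have := D.S_next hV 0 2; norm_num at this; exact this
  have o13 : D.S 1 3 = D.S (-1) 1 := by
    have := D.S_next hV (-1) 2; norm_num at this; exact this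
  -- products with `s₁`
  have a_s : ∀ i : ℤ, i ∈ ({-2, -1, 0, 1, 2, 3, 4} : Finset ℤ) → B (D.a i) (D.S 0 1) = (31 * l - 1) / 32 := by
    intro i hi
    fin_cases hi
    · have := D.ip_S_self hV (-2) (-1); rwa [s21, l21] at this
    · have := D.ip_S_self hV (-1) 0; rwa [s01, l10] at this
    · have := D.ip_S_self hV 0 1; rwa [hl] at this
    · have := D.ip_S_self hV 1 2; rwa [s12, l12] at this
    · have := D.ip_S_self hV 2 3; rwa [s23, l23] at this
    · have := D.ip_S_self hV 3 4; rwa [s34, l34] at this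
    · have := D.ip_S_self hV 4 3; rwa [D.S_symm hV, s34, sy 4 3, l34] at this
  have as2 := a_s (-2) (by decide)
  have as1 := a_s (-1) (by decide)
  have as0 := a_s 0 (by decide)
  have bs1 := a_s 1 (by decide)
  have bs2 := a_s 2 (by decide)
  have bs3 := a_s 3 (by decide)
  have bs4 := a_s 4 (by decide)
  -- products with σ₂ even
  have ae2 : B (D.a (-2)) (D.S 0 2) = (31 * m - 1) / 32 := by
    have := D.ip_S_self hV (-2) 0; rwa [e02, m20] at this
  have ae0 : B (D.a 0) (D.S 0 2) = (31 * m - 1) / 32 := by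
    have := D.ip_S_self hV 0 2; rwa [hm] at this
  have be2 : B (D.a 2) (D.S 0 2) = (31 * m - 1) / 32 := by
    have := D.ip_S_self hV 2 4; rwa [e24, m24] at this
  have be4 : B (D.a 4) (D.S 0 2) = (31 * m - 1) / 32 := by
    have := D.ip_S_self hV 4 2; rwa [D.S_symm hV, e24, sy 4 2, m24] at this
  have ae1 : B (D.a (-1)) (D.S 0 2) = (30 * l + m - 1) / 32 := by
    have := D.ip_S hV (-1) (-2) 0
    rw [e02, D.S_symm hV (-1) (-2), s21, form_symm hV _ (D.a 0), as0, m20, sy (-1) (-2), l21] at this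
    rw [this]; ring
  have be1 : B (D.a 1) (D.S 0 2) = (30 * l + m - 1) / 32 := by
    have := D.ip_S hV 1 0 2
    rw [D.S_symm hV 1 0, form_symm hV _ (D.a 2), bs2, hm, sy 1 0, hl] at this
    rw [this]; ring
  have be3 : B (D.a 3) (D.S 0 2) = (30 * l + m - 1) / 32 := by
    have := D.ip_S hV 3 2 4
    rw [e24, D.S_symm hV 3 2, s23, form_symm hV _ (D.a 4), bs4, m24, sy 3 2, l23] at this
    rw [this]; ring
  -- products with σ₂ odd
  have ao1 : B (D.a (-1)) (D.S (-1) 1) = (31 * n - 1) / 32 := by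
    have := D.ip_S_self hV (-1) 1; rwa [hn] at this
  have bo1 : B (D.a 1) (D.S (-1) 1) = (31 * n - 1) / 32 := by
    have := D.ip_S_self hV 1 3; rwa [o13, n13] at this
  have bo3 : B (D.a 3) (D.S (-1) 1) = (31 * n - 1) / 32 := by
    have := D.ip_S_self hV 3 1; rwa [D.S_symm hV, o13, sy 3 1, n13] at this
  have ao0 : B (D.a 0) (D.S (-1) 1) = (30 * l + n - 1) / 32 := by
    have := D.ip_S hV 0 (-1) 1
    rw [D.S_symm hV 0 (-1), s01, form_symm hV _ (D.a 1), bs1, hn, sy 0 (-1), l10] at this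
    rw [this]; ring
  have ao2 : B (D.a (-2)) (D.S (-1) 1) = (30 * l + n - 1) / 32 := by
    have h1 : D.S (-3) (-1) = D.S (-1) 1 := by
      have := D.S_next hV (-3) 2; norm_num at this; exact this.symm
    have h2 : D.S (-3) (-2) = D.S 0 1 := by
      have := D.S_next hV (-3) 1; norm_num at this; rw [← this, s21]
    have h3 : B (D.a (-3)) (D.a (-1)) = n := by
      have := D.ip_refl (-1) (-1) 1; norm_num at this; rw [sy, this, hn]
    have h4 : B (D.a (-3)) (D.a (-2)) = l := by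
      have := D.ip_refl (-2) (-2) (-1); norm_num at this; rw [sy, this, l21]
    have := D.ip_S hV (-2) (-3) (-1)
    rw [h1, D.S_symm hV (-2) (-3), h2, form_symm hV _ (D.a (-1)), as1, h3, sy (-2) (-3), h4] at this
    rw [this]; ring
  have bo4 : B (D.a 4) (D.S (-1) 1) = (30 * l + n - 1) / 32 := by
    have h1 : D.S 3 5 = D.S (-1) 1 := by
      have := D.S_next hV 1 2; norm_num at this; rw [this, o13]
    have h2 : D.S 4 5 = D.S 0 1 := by
      have := D.S_next hV 3 1; norm_num at this; rw [this, s34]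
    have h3 : B (D.a 3) (D.a 5) = n := by
      have := D.ip_refl 3 3 1; norm_num at this; rw [this, sy, n13]
    have h5 : B (D.a 5) (D.S 0 1) = (31 * l - 1) / 32 := by
      have := D.ip_S_self hV 5 4
      have h6 : B (D.a 4) (D.a 5) = l := by
        have := D.ip_refl 4 4 3; norm_num at this; rw [this, sy, l34]
      rwa [D.S_symm hV, h2, sy 5 4, h6] at this
    have := D.ip_S hV 4 3 5
    rw [h1, D.S_symm hV 4 3, s34, form_symm hV _ (D.a 5), h5, h3, sy 4 3, l34] at this
    rw [this]; ring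
  have bo2 : B (D.a 2) (D.S (-1) 1) = (30 * l + n - 1) / 32 := by
    have := D.ip_S hV 2 1 3
    rw [o13, D.S_symm hV 2 1, s12, form_symm hV _ (D.a 3), bs3, n13, sy 2 1, l12] at this
    rw [this]; ring
  -- norm-type products
  have q0 := D.a_mul_S hV 0 1
  rw [hl, show (2 : ℤ) * 0 - 1 = -1 by norm_num] at q0
  have q1 := D.a_mul_S hV 1 0
  rw [D.S_symm hV 1 0, D.ip_symm hV, hl, show (2 : ℤ) * 1 - 0 = 2 by norm_num] at q1
  have sse : B (D.S 0 1) (D.S 0 2) = (5 / 32) * ((31 * l - 1) / 32) + (3 * l / 4 - 25 / 1024) * m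
      + (7 / 2048) * (l + p) := by
    conv_lhs => unfold DihSeq.S
    rw [← DihSeq.S, map_sub, form_assoc hV, comm hV (D.S 0 1), q0]
    simp only [map_add, map_smul, LinearMap.add_apply, LinearMap.smul_apply, smul_eq_mul,
      form_symm hV (D.S 0 1), as0, bs2, hm, l12, p12]
    ring
  have qm1 := D.a_mul_S hV (-1) 0
  rw [s01, l10, show (2 : ℤ) * (-1) - 0 = -2 by norm_num] at qm1
  have sso : B (D.S 0 1) (D.S (-1) 1) = (5 / 32) * ((31 * l - 1) / 32) + (3 * l / 4 - 25 / 1024) * n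
      + (7 / 2048) * (l + p) := by
    have h1 : D.S (-1) 1 = mul (D.a (-1)) (D.a 1) - (1 / 32 : ℝ) • (D.a (-1) + D.a 1) := rfl
    rw [h1, map_sub, form_assoc hV, comm hV (D.S 0 1), qm1]
    simp only [map_add, map_smul, LinearMap.add_apply, LinearMap.smul_apply, smul_eq_mul,
      form_symm hV (D.S 0 1), as1, bs1, hn, hl, p21]
    ring
  -- the scalar products of the relation
  have E1 := congrArg (fun v => B v (D.S 0 1)) R
  simp only [map_add, map_sub, map_smul, map_zero, LinearMap.add_apply, LinearMap.sub_apply, LinearMap.smul_apply, LinearMap.zero_apply,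
    smul_eq_mul, as2, as1, as0, bs1, bs2, bs3, form_symm hV (D.S 0 2) (D.S 0 1),
    form_symm hV (D.S (-1) 1) (D.S 0 1), sse, sso] at E1
  have E2 := congrArg (fun v => B v (D.a 0)) R
  simp only [map_add, map_sub, map_smul, map_zero, LinearMap.add_apply, LinearMap.sub_apply, LinearMap.smul_apply, LinearMap.zero_apply,
    smul_eq_mul, m20, l10, N, sy 1 0, hl, sy 2 0, hm, sy 3 0, hp, form_symm hV (D.S 0 2) (D.a 0),
    form_symm hV (D.S (-1) 1) (D.a 0), ae0, ao0] at E2
  have E3 := congrArg (fun v => B v (D.a 1)) R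
  simp only [map_add, map_sub, map_smul, map_zero, LinearMap.add_apply, LinearMap.sub_apply, LinearMap.smul_apply, LinearMap.zero_apply,
    smul_eq_mul, p21, hn, hl, N, sy 2 1, l12, sy 3 1, n13, form_symm hV (D.S 0 2) (D.a 1),
    form_symm hV (D.S (-1) 1) (D.a 1), be1, bo1] at E3
  unfold C at E1 E2 E3
  have F1 : (m - n) * (303 / 224 - 292 / 7 * l) = 0 := by linear_combination E1
  have F2 : (m - n) * (303 + 1920 * l) = 0 := by linear_combination (-7) * E2 - 7 * E3
  have hmn : m = n := by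
    by_contra hne
    have hne' : m - n ≠ 0 := sub_ne_zero.mpr hne
    have g1 := (mul_eq_zero.mp F1).resolve_left hne'
    have g2 := (mul_eq_zero.mp F2).resolve_left hne'
    linarith
  have hP : p = (-32768 * l ^ 3 - 1920 * l * m + 36864 * l ^ 2 - 2169 * l - 33 * m + 33) / 7 := by
    rw [← hmn] at E2
    linear_combination (-1) * E2
  have E4 := congrArg (fun v => B v (D.a 2)) R
  simp only [map_add, map_sub, map_smul, map_zero, LinearMap.add_apply, LinearMap.sub_apply, LinearMap.smul_apply, LinearMap.zero_apply,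
    smul_eq_mul, q22, p12, hm, l12, N, sy 3 2, l23, form_symm hV (D.S 0 2) (D.a 2),
    form_symm hV (D.S (-1) 1) (D.a 2), be2, bo2] at E4
  have E5 := congrArg (fun v => B v (D.a (-2))) R
  simp only [map_add, map_sub, map_smul, map_zero, LinearMap.add_apply, LinearMap.sub_apply, LinearMap.smul_apply, LinearMap.zero_apply,
    smul_eq_mul, N, sy (-1) (-2), l21, sy 0 (-2), m20, sy 1 (-2), p21, sy 2 (-2), q22, sy 3 (-2), hu,
    form_symm hV (D.S 0 2) (D.a (-2)), form_symm hV (D.S (-1) 1) (D.a (-2)), ae2, ao2] at E5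
  have E6 := congrArg (fun v => B v (D.a 4)) R
  simp only [map_add, map_sub, map_smul, map_zero, LinearMap.add_apply, LinearMap.sub_apply, LinearMap.smul_apply, LinearMap.zero_apply,
    smul_eq_mul, hw, u14, hqe, p14, m24, l34,
    form_symm hV (D.S 0 2) (D.a 4), form_symm hV (D.S (-1) 1) (D.a 4), be4, bo4] at E6
  have E7 := congrArg (fun v => B v (D.a (-1))) R
  simp only [map_add, map_sub, map_smul, map_zero, LinearMap.add_apply, LinearMap.sub_apply, LinearMap.smul_apply, LinearMap.zero_apply,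
    smul_eq_mul, N, l21, sy 0 (-1), l10, sy 1 (-1), hn, sy 2 (-1), p12, sy 3 (-1), hqo,
    form_symm hV (D.S 0 2) (D.a (-1)), form_symm hV (D.S (-1) 1) (D.a (-1)), ae1, ao1] at E7
  unfold C at E4 E5 E6 E7
  rw [← hmn] at E4 E5 E6 E7
  have hQ : qe = -((32768/7)*l^2*m + (-32768/7)*l^3 + (-2432/7)*l*m + (256)*l*p + (2304/7)*l^2
      + (128/7)*m^2 + (-1622/7)*l + (-177/7)*m + (-6)*p + 6) := by linear_combination E4
  have hU : u = (32768/7)*l^2*m + (-32768/7)*l^2*p + (-2304/7)*l*m + (2304/7)*l*p + (-256)*l*qe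
      + (256)*l^2 + (-128/7)*m*p + (128/7)*m^2 + (24)*l + (-177/7)*m + (-33/7)*p + (6)*qe + 1 := by
    linear_combination (-1) * E5
  have hW : w = -((-32768/7)*l^2*p + (32768/7)*l^2*qe + (-256)*l*m + (2304/7)*l*p + (-2304/7)*l*qe
      + (256)*l*u + (-128/7)*m*p + (128/7)*m*qe + (29)*l + (-24)*m + (-33/7)*p + (33/7)*qe + (-6)*u) := by
    linear_combination E6
  have hQ' : qo = qe := by linear_combination (-1) * E7 - E4
  -- multiply the relation by `a 0`
  have X := congrArg (mul (D.a 0)) R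
  have qe0 := D.a_mul_S hV 0 2
  rw [hm, show (2 : ℤ) * 0 - 2 = -2 by norm_num] at qe0
  have pm1 : mul (D.a 0) (D.a (-1)) = D.S 0 1 + (1 / 32 : ℝ) • (D.a 0 + D.a (-1)) := by
    rw [D.mul_eq, D.S_symm hV, s01]
  have pm2 : mul (D.a 0) (D.a (-2)) = D.S 0 2 + (1 / 32 : ℝ) • (D.a 0 + D.a (-2)) := by
    rw [D.mul_eq, D.S_symm hV, e02]
  simp only [map_add, map_sub, map_smul, map_zero, idem (D.pair 0), K, qe0, pm1, pm2,
    D.mul_eq 0 1, D.mul_eq 0 2, D.mul_eq 0 3] at X
  have t2 : B (D.S 0 3) (D.a 2) = (30 * l + p - 1) / 32 := by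
    have := D.ip_S hV 2 3 0
    rw [D.S_symm hV 3 0, s23, form_symm hV _ (D.a 0), as0, sy 3 0, hp, l23] at this
    rw [form_symm hV, this]; ring
  have t3 : B (D.S 0 3) (D.a 3) = (31 * p - 1) / 32 := by
    have := D.ip_S_self hV 3 0
    rw [D.S_symm hV 3 0, sy 3 0, hp] at this
    rw [form_symm hV, this]
  have Y2 := congrArg (fun v => B v (D.a 2)) X
  simp only [map_add, map_sub, map_smul, map_zero, LinearMap.add_apply, LinearMap.sub_apply, LinearMap.smul_apply, LinearMap.zero_apply,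
    smul_eq_mul, q22, p12, hm, l12, N, sy 3 2, l23, form_symm hV (D.S 0 2) (D.a 2),
    form_symm hV (D.S 0 1) (D.a 2), be2, bs2, t2] at Y2
  have Y3 := congrArg (fun v => B v (D.a 3)) X
  simp only [map_add, map_sub, map_smul, map_zero, LinearMap.add_apply, LinearMap.sub_apply, LinearMap.smul_apply, LinearMap.zero_apply,
    smul_eq_mul, hu, hqo, hp, n13, N, l23, form_symm hV (D.S 0 2) (D.a 3),
    form_symm hV (D.S 0 1) (D.a 3), be3, bs3, t3] at Y3
  unfold C at Y2 Y3
  rw [← hmn] at Y2 Y3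
  rw [hQ'] at Y3
  have c1 : 8192 * l ^ 4 + 160 * l ^ 2 * m - 9088 * l ^ 3 + 139 / 4 * l * m + 720 * l ^ 2 + m ^ 2 / 2
      - 75 / 4 * l - 167 / 256 * m + 39 / 256 = 0 := by
    rw [hQ, hP] at Y2
    linear_combination (-(7 / 96)) * Y2
  have c2 : -12079595520 * l ^ 5 - 47185920 * l ^ 3 * m + 12740198400 * l ^ 4 - 108380160 * l ^ 2 * m
      - 491028480 * l ^ 3 + 1143360 * l * m - 16035840 * l ^ 2 + 884160 * l + 8775 * m - 8775 = 0 := by
    rw [hU, hQ, hP] at Y3
    linear_combination 784 * Y3 - 784 * ((141312 * l + 4176) / 49) * c1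
  exact ⟨hmn, hP, hQ, hU, hW, c1, c2⟩

end Cfsg.Agent.H92.Sak
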