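import Cfsg.Agent.H92.Sakuma

set_option autoImplicit false

namespace Cfsg.Agent.H92.Sak

open Cfsg.Axial Cfsg.Agent.H92.Maj

variable {V : Type*} [AddCommGroup V] [Module ℝ V]
variable {mul : V →ₗ[ℝ] V →ₗ[ℝ] V} {B : LinearMap.BilinForm ℝ V}

/-- A two-sided sequence of axes permuted by its Majorana involutions like a dihedral group. -/
structure DihSeq (mul : V →ₗ[ℝ] V →ₗ[ℝ] V) (B : LinearMap.BilinForm ℝ V) where
  /-- the axes -/
  a : ℤ → V
  /-- the involutions -/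
  t : ℤ → (V ≃ₗ[ℝ] V)
  pair : ∀ i, IsMajoranaPair mul B (t i) (a i)
  norm : ∀ i, B (a i) (a i) = 1
  refl : ∀ i j, t i (a j) = a (2 * i - j)

namespace DihSeq

variable (D : DihSeq mul B)

/-- the `σ`-elements. -/
noncomputable def S (i j : ℤ) : V := mul (D.a i) (D.a j) - (1 / 32 : ℝ) • (D.a i + D.a j)

theorem mul_eq (i j : ℤ) : mul (D.a i) (D.a j) = D.S i j + (1 / 32 : ℝ) • (D.a i + D.a j) := by
  unfold S; abel

theorem S_symm (hV : IsMajoranaAmbient mul B) (i j : ℤ) : D.S i j = D.S j i := by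
  unfold S; rw [comm hV, add_comm (D.a i)]

theorem S_refl (hV : IsMajoranaAmbient mul B) (i j : ℤ) : D.S i (2 * i - j) = D.S i j := by
  have := (basic hV (D.pair i) (D.norm i) (D.a j)).1
  rw [D.refl] at this
  unfold S
  rw [this]; abel

theorem S_next (hV : IsMajoranaAmbient mul B) (i d : ℤ) : D.S (i + d) (i + 2 * d) = D.S i (i + d) := by
  have := D.S_refl hV (i + d) i
  rw [show 2 * (i + d) - i = i + 2 * d by ring] at this
  rw [this, D.S_symm hV]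

theorem a_mul_S (hV : IsMajoranaAmbient mul B) (i j : ℤ) :
    mul (D.a i) (D.S i j) = (7 / 32 : ℝ) • D.S i j + (3 * B (D.a i) (D.a j) / 4 - 25 / 1024) • D.a i
      + (7 / 2048 : ℝ) • (D.a j + D.a (2 * i - j)) := by
  have := (basic hV (D.pair i) (D.norm i) (D.a j)).2
  rw [D.refl] at this
  exact this

theorem ip_refl (k i j : ℤ) : B (D.a (2 * k - i)) (D.a (2 * k - j)) = B (D.a i) (D.a j) := by
  rw [← D.refl, ← D.refl, map_form (D.pair k)]

theorem ip_symm (hV : IsMajoranaAmbient mul B) (i j : ℤ) : B (D.a i) (D.a j) = B (D.a j) (D.a i) :=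
  form_symm hV _ _

theorem ip_shift (i j : ℤ) : B (D.a (i + 2)) (D.a (j + 2)) = B (D.a i) (D.a j) := by
  have h1 := D.ip_refl 1 (-i) (-j)
  have h2 := D.ip_refl 0 i j
  rw [show (2 : ℤ) * 1 - -i = i + 2 by ring, show (2 : ℤ) * 1 - -j = j + 2 by ring] at h1
  rw [show (2 : ℤ) * 0 - i = -i by ring, show (2 : ℤ) * 0 - j = -j by ring] at h2
  rw [h1, h2]

theorem ip_shift_nat (n : ℕ) (i j : ℤ) : B (D.a (i + 2 * n)) (D.a (j + 2 * n)) = B (D.a i) (D.a j) := by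
  induction n with
  | zero => simp
  | succ n ih =>
    rw [← ih, ← D.ip_shift (i + 2 * n) (j + 2 * n)]
    congr 2 <;> push_cast <;> ring_nf

theorem ip_S_self (hV : IsMajoranaAmbient mul B) (i j : ℤ) :
    B (D.a i) (D.S i j) = (31 * B (D.a i) (D.a j) - 1) / 32 := by
  unfold S
  rw [map_sub, form_assoc hV, idem (D.pair i)]
  simp only [map_add, map_smul, smul_eq_mul, D.norm]
  ring

theorem ip_S (hV : IsMajoranaAmbient mul B) (i j k : ℤ) :
    B (D.a i) (D.S j k) = B (D.S i j) (D.a k) + (1 / 32) * B (D.a j) (D.a k) - (1 / 32) * B (D.a i) (D.a j) := by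
  conv_lhs => unfold S
  rw [map_sub, form_assoc hV, D.mul_eq]
  simp only [map_add, map_smul, LinearMap.add_apply, LinearMap.smul_apply, smul_eq_mul]
  ring

end DihSeq

/-- Constant appearing in the key relation. -/
noncomputable def C (l m : ℝ) : ℝ := (32768 * l ^ 2 - 2304 * l + 128 * m + 33) / 7

/-- The key linear relation. -/
theorem key_rel (hV : IsMajoranaAmbient mul B) (D : DihSeq mul B) {l m n : ℝ}
    (hl : B (D.a 0) (D.a 1) = l) (hm : B (D.a 0) (D.a 2) = m) (hn : B (D.a (-1)) (D.a 1) = n) :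
    D.a (-2) + (256 * l - 6) • D.a (-1) + C l n • D.a 0 - C l m • D.a 1 - (256 * l - 6) • D.a 2 - D.a 3
      - (32 : ℝ) • D.S 0 2 + (32 : ℝ) • D.S (-1) 1 = 0 ∧
    mul (D.a 0) (D.S (-1) 1) = (l / 6 - 19 / 3072) • (D.a 1 + D.a (-1)) + (7 / 6144 : ℝ) • (D.a 2 + D.a (-2))
        + (-(32 / 3) * l ^ 2 + 5 / 3 * l - n / 24 - 127 / 3072) • D.a 0 + (32 / 3 * l - 19 / 48) • D.S 0 1
        + (7 / 96 : ℝ) • D.S 0 2 := by
  -- σ₁
  have s01 : D.S (-1) 0 = D.S 0 1 := by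
    have := D.S_next hV (-1) 1; norm_num at this; exact this.symm
  have s12 : D.S 1 2 = D.S 0 1 := by
    have := D.S_next hV 0 1; norm_num at this; exact this
  have s23 : D.S 2 3 = D.S 0 1 := by
    have := D.S_next hV 1 1; norm_num at this; rw [this, s12]
  have s21 : D.S (-2) (-1) = D.S 0 1 := by
    have := D.S_next hV (-2) 1; norm_num at this; rw [← this, s01]
  have e02 : D.S (-2) 0 = D.S 0 2 := by
    have := D.S_next hV (-2) 2; norm_num at this; exact this.symm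
  have o13 : D.S 1 3 = D.S (-1) 1 := by
    have := D.S_next hV (-1) 2; norm_num at this; exact this
  -- λ values
  have l01 : B (D.a (-1)) (D.a 0) = l := by
    have := D.ip_refl 0 0 1; norm_num at this
    rw [D.ip_symm hV, this, hl]
  have l12 : B (D.a 1) (D.a 2) = l := by
    have := D.ip_refl 1 1 0; norm_num at this
    rw [this, D.ip_symm hV, hl]
  have n13 : B (D.a 1) (D.a 3) = n := by
    have := D.ip_refl 1 1 (-1); norm_num at this
    rw [this, D.ip_symm hV, hn]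
  -- products at centre 0
  have p01 := D.mul_eq 0 1
  have p0m1 : mul (D.a 0) (D.a (-1)) = D.S 0 1 + (1 / 32 : ℝ) • (D.a 0 + D.a (-1)) := by
    rw [D.mul_eq, D.S_symm hV, s01]
  have p1m1 : mul (D.a 1) (D.a (-1)) = D.S (-1) 1 + (1 / 32 : ℝ) • (D.a 1 + D.a (-1)) := by
    rw [D.mul_eq, D.S_symm hV]
  have p02 := D.mul_eq 0 2
  have p0m2 : mul (D.a 0) (D.a (-2)) = D.S 0 2 + (1 / 32 : ℝ) • (D.a 0 + D.a (-2)) := by
    rw [D.mul_eq, D.S_symm hV, e02]
  have q0 := D.a_mul_S hV 0 1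
  rw [hl, show (2 : ℤ) * 0 - 1 = -1 by norm_num] at q0
  have q1 := D.a_mul_S hV 1 0
  rw [D.S_symm hV 1 0, D.ip_symm hV, hl, show (2 : ℤ) * 1 - 0 = 2 by norm_num] at q1
  have qm1 := D.a_mul_S hV (-1) 0
  rw [s01, l01, show (2 : ℤ) * (-1) - 0 = -2 by norm_num] at qm1
  have nv0 := norm_v hV (D.pair 0) (D.norm 0) (D.a 1) (idem (D.pair 1)) (D.norm 1) (D.S 0 1) p01
  rw [hl, D.refl, show (2 : ℤ) * 0 - 1 = -1 by norm_num, D.ip_symm hV 1 (-1), hn] at nv0
  obtain ⟨c0, c0'⟩ := center hV (D.pair 0) (D.norm 0) p01 p0m1 p1m1 (idem (D.pair 1)) (idem (D.pair (-1)))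
    p02 p0m2 q0 q1 qm1 nv0
  -- products at centre 1
  have p12 : mul (D.a 1) (D.a 2) = D.S 0 1 + (1 / 32 : ℝ) • (D.a 1 + D.a 2) := by
    rw [D.mul_eq, s12]
  have p10 : mul (D.a 1) (D.a 0) = D.S 0 1 + (1 / 32 : ℝ) • (D.a 1 + D.a 0) := by
    rw [D.mul_eq, D.S_symm hV]
  have p20 : mul (D.a 2) (D.a 0) = D.S 0 2 + (1 / 32 : ℝ) • (D.a 2 + D.a 0) := by
    rw [D.mul_eq, D.S_symm hV]
  have p13 : mul (D.a 1) (D.a 3) = D.S (-1) 1 + (1 / 32 : ℝ) • (D.a 1 + D.a 3) := by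
    rw [D.mul_eq, o13]
  have r1 : mul (D.a 1) (D.S 0 1) = (7 / 32 : ℝ) • D.S 0 1 + (3 * l / 4 - 25 / 1024) • D.a 1
      + (7 / 2048 : ℝ) • (D.a 2 + D.a 0) := by rw [q1, add_comm (D.a 2)]
  have r2 := D.a_mul_S hV 2 1
  rw [D.S_symm hV 2 1, s12, D.ip_symm hV, l12, show (2 : ℤ) * 2 - 1 = 3 by norm_num] at r2
  have r0 : mul (D.a 0) (D.S 0 1) = (7 / 32 : ℝ) • D.S 0 1 + (3 * l / 4 - 25 / 1024) • D.a 0
      + (7 / 2048 : ℝ) • (D.a 1 + D.a (-1)) := q0
  have nv1 := norm_v hV (D.pair 1) (D.norm 1) (D.a 2) (idem (D.pair 2)) (D.norm 2) (D.S 0 1) p12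
  rw [l12, D.refl, show (2 : ℤ) * 1 - 2 = 0 by norm_num, D.ip_symm hV 2 0, hm] at nv1
  obtain ⟨c1, c1'⟩ := center hV (D.pair 1) (D.norm 1) p12 p10 p20 (idem (D.pair 2)) (idem (D.pair 0))
    p13 p1m1 r1 r2 r0 nv1
  refine ⟨?_, c0⟩
  unfold C
  rw [c0'] at c1'
  linear_combination (norm := module) (196608 / 49 : ℝ) • c1'

end Cfsg.Agent.H92.Sak
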